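import Mathlib

set_option autoImplicit false

namespace Cfsg.Agent.Helper7

/-- A finite abelian group that is not cyclic maps onto `C_p × C_p` for some prime `p`. -/
theorem exists_surjective_of_not_isCyclic {G : Type*} [CommGroup G] [Finite G] (h : ¬ IsCyclic G) :
    ∃ (p : ℕ), p.Prime ∧ ∃ φ : G →* Multiplicative (ZMod p × ZMod p), Function.Surjective φ := by
  classical
  obtain ⟨ι, _, n, hn, ⟨e⟩⟩ := CommGroup.equiv_prod_multiplicative_zmod_of_finite G
  haveI : ∀ i, NeZero (n i) := fun i => ⟨by have := hn i; omega⟩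
  by_cases hcop : ∀ i j : ι, i ≠ j → Nat.Coprime (n i) (n j)
  · exfalso
    apply h
    have hcyc : IsCyclic ((i : ι) → Multiplicative (ZMod (n i))) := by
      apply isCyclic_of_orderOf_eq_card (fun i => Multiplicative.ofAdd (1 : ZMod (n i)))
      have hcard : Nat.card ((i : ι) → Multiplicative (ZMod (n i))) = ∏ i, n i := by
        rw [Nat.card_pi]
        apply Finset.prod_congr rfl
        intro i _
        show Nat.card (ZMod (n i)) = n i
        simp
      rw [hcard]
      apply Nat.dvd_antisymm
      · rw [← hcard]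
        exact orderOf_dvd_natCard _
      · apply Fintype.prod_dvd_of_isRelPrime
        · intro i j hij
          exact Nat.coprime_iff_isRelPrime.1 (hcop i j hij)
        · intro i
          have h1 := pow_orderOf_eq_one (fun i => Multiplicative.ofAdd (1 : ZMod (n i)))
          have h2 := congrFun h1 i
          rw [Pi.pow_apply, ← ofAdd_nsmul] at h2
          have h3 : (orderOf (fun i => Multiplicative.ofAdd (1 : ZMod (n i))) •
              (1 : ZMod (n i))) = 0 := h2
          rw [nsmul_eq_mul, mul_one, ZMod.natCast_eq_zero_iff] at h3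
          exact h3
    exact isCyclic_of_surjective (e.symm : ((i : ι) → Multiplicative (ZMod (n i))) →* G)
      e.symm.surjective
  · push Not at hcop
    obtain ⟨i, j, hij, hnc⟩ := hcop
    obtain ⟨p, hp, hpi, hpj⟩ := Nat.Prime.not_coprime_iff_dvd.1 hnc
    refine ⟨p, hp, ⟨{
      toFun := fun g => Multiplicative.ofAdd
        (ZMod.castHom hpi (ZMod p) (Multiplicative.toAdd (e g i)),
         ZMod.castHom hpj (ZMod p) (Multiplicative.toAdd (e g j)))
      map_one' := by
        rw [map_one]
        show Multiplicative.ofAdd (ZMod.castHom hpi (ZMod p) 0, ZMod.castHom hpj (ZMod p) 0) = 1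
        rw [map_zero, map_zero]
        rfl
      map_mul' := by
        intro a b
        rw [map_mul]
        show Multiplicative.ofAdd
          (ZMod.castHom hpi (ZMod p) (Multiplicative.toAdd (e a i) + Multiplicative.toAdd (e b i)),
           ZMod.castHom hpj (ZMod p) (Multiplicative.toAdd (e a j) + Multiplicative.toAdd (e b j))) = _
        rw [map_add, map_add]
        rfl }, ?_⟩⟩
    intro y
    obtain ⟨a, ha⟩ := ZMod.ringHom_surjective (ZMod.castHom hpi (ZMod p)) (Multiplicative.toAdd y).1
    obtain ⟨b, hb⟩ := ZMod.ringHom_surjective (ZMod.castHom hpj (ZMod p)) (Multiplicative.toAdd y).2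
    refine ⟨e.symm (Pi.mulSingle i (Multiplicative.ofAdd a) * Pi.mulSingle j (Multiplicative.ofAdd b)), ?_⟩
    show Multiplicative.ofAdd
      (ZMod.castHom hpi (ZMod p) (Multiplicative.toAdd (e (e.symm (Pi.mulSingle i (Multiplicative.ofAdd a) * Pi.mulSingle j (Multiplicative.ofAdd b))) i)),
       ZMod.castHom hpj (ZMod p) (Multiplicative.toAdd (e (e.symm (Pi.mulSingle i (Multiplicative.ofAdd a) * Pi.mulSingle j (Multiplicative.ofAdd b))) j))) = y
    rw [MulEquiv.apply_symm_apply, Pi.mul_apply, Pi.mul_apply, Pi.mulSingle_eq_same,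
      Pi.mulSingle_eq_same, Pi.mulSingle_eq_of_ne hij, Pi.mulSingle_eq_of_ne (Ne.symm hij),
      mul_one, one_mul, toAdd_ofAdd, toAdd_ofAdd, ha, hb]
    rfl

end Cfsg.Agent.Helper7
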