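import Mathlib

set_option autoImplicit false

namespace Cfsg.Agent.Helper7

/-- A free action of `G` on a finite type `X` forces `|G| ∣ |X|`. -/
theorem card_dvd_of_free_action {G X : Type*} [Group G] [MulAction G X] [Finite X]
    (hfree : ∀ (g : G) (x : X), g • x = x → g = 1) : Nat.card G ∣ Nat.card X := by
  classical
  have e := MulAction.selfEquivSigmaOrbits G X
  haveI : Fintype (MulAction.orbitRel.Quotient G X) := Fintype.ofFinite _
  rw [Nat.card_congr e, Nat.card_sigma]
  apply Finset.dvd_sum
  intro ω _
  have h := MulAction.orbitEquivQuotientStabilizer G (Quotient.out ω)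
  rw [Nat.card_congr h]
  have hs : MulAction.stabilizer G (Quotient.out ω) = ⊥ := by
    ext g
    rw [MulAction.mem_stabilizer_iff, Subgroup.mem_bot]
    exact ⟨hfree g _, fun h => by subst h; simp⟩
  rw [hs]
  exact (Nat.card_congr (QuotientGroup.quotientBot (G := G)).toEquiv).symm.dvd

section gen

variable {P V : Type*} [Group P] [Finite P] [AddCommGroup V] [Finite V] (p : ℕ) [Fact p.Prime]
  [Module (ZMod p) V]

/-- generating tuples map to linearly independent tuples. -/
theorem li_of_closure_eq_top (f : P →* Multiplicative V) (hf : Function.Surjective f)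
    {r : ℕ} (hr : Module.finrank (ZMod p) V = r) (s : Fin r → P)
    (hs : Subgroup.closure (Set.range s) = ⊤) :
    LinearIndependent (ZMod p) (fun i => Multiplicative.toAdd (f (s i))) := by
  apply linearIndependent_of_top_le_span_of_card_eq_finrank
  · intro v _
    set W := Submodule.span (ZMod p) (Set.range (fun i => Multiplicative.toAdd (f (s i)))) with hW
    let H' : Subgroup P := (AddSubgroup.toSubgroup W.toAddSubgroup).comap f
    have h1 : Subgroup.closure (Set.range s) ≤ H' := by
      rw [Subgroup.closure_le]
      rintro _ ⟨i, rfl⟩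
      show f (s i) ∈ AddSubgroup.toSubgroup W.toAddSubgroup
      have : Multiplicative.toAdd (f (s i)) ∈ W := Submodule.subset_span ⟨i, rfl⟩
      exact this
    rw [hs] at h1
    obtain ⟨x, hx⟩ := hf (Multiplicative.ofAdd v)
    have h2 : x ∈ H' := h1 (Subgroup.mem_top x)
    have h3 : f x ∈ AddSubgroup.toSubgroup W.toAddSubgroup := h2
    rw [hx] at h3
    exact h3
  · simp [hr]

/-- linearly independent tuples lift to generating tuples. -/
theorem closure_eq_top_of_li (f : P →* Multiplicative V)
    (hker : f.ker ≤ frattini P)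
    {r : ℕ} (hr : Module.finrank (ZMod p) V = r) (s : Fin r → P)
    (hs : LinearIndependent (ZMod p) (fun i => Multiplicative.toAdd (f (s i)))) :
    Subgroup.closure (Set.range s) = ⊤ := by
  have hspan := hs.span_eq_top_of_card_eq_finrank' (by simp [hr])
  apply frattini_nongenerating
  rw [eq_top_iff]
  refine le_trans ?_ (sup_le_sup_left hker _)
  rw [← Subgroup.comap_map_eq]
  intro x _
  rw [Subgroup.mem_comap]
  set K := Subgroup.map f (Subgroup.closure (Set.range s)) with hK
  let W' : Submodule (ZMod p) V := AddSubgroup.toZModSubmodule p (AddSubgroup.toSubgroup.symm K)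
  have h1 : Submodule.span (ZMod p) (Set.range (fun i => Multiplicative.toAdd (f (s i)))) ≤ W' := by
    rw [Submodule.span_le]
    rintro _ ⟨i, rfl⟩
    show f (s i) ∈ K
    exact Subgroup.mem_map_of_mem _ (Subgroup.subset_closure ⟨i, rfl⟩)
  rw [hspan] at h1
  have h2 : Multiplicative.toAdd (f x) ∈ W' := h1 Submodule.mem_top
  exact h2

/-- the set of generating `r`-tuples. -/
def GenTuple (P : Type*) [Group P] (r : ℕ) : Type _ :=
  {s : Fin r → P // Subgroup.closure (Set.range s) = ⊤}

instance (r : ℕ) : Finite (GenTuple P r) := by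
  unfold GenTuple; infer_instance

instance genTupleAction (r : ℕ) : MulAction (MulAut P) (GenTuple P r) where
  smul φ s := ⟨fun i => φ (s.1 i), by
    have h := s.2
    have h2 : Set.range (fun i => φ (s.1 i)) = (φ.toMonoidHom : P →* P) '' Set.range s.1 := by
      ext y; simp
    rw [h2, ← MonoidHom.map_closure, h]
    rw [← MonoidHom.range_eq_map]
    exact MonoidHom.range_eq_top.mpr φ.surjective⟩
  one_smul s := by
    apply Subtype.ext
    rfl
  mul_smul φ ψ s := by
    apply Subtype.ext
    rfl

theorem genTuple_smul_val (r : ℕ) (φ : MulAut P) (s : GenTuple P r) (i : Fin r) :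
    (φ • s).1 i = φ (s.1 i) := rfl

theorem genTuple_free (r : ℕ) (φ : MulAut P) (s : GenTuple P r) (h : φ • s = s) : φ = 1 := by
  have h1 : ∀ i, φ (s.1 i) = s.1 i := fun i => by
    rw [← genTuple_smul_val, h]
  have h2 : (φ.toMonoidHom : P →* P) = MonoidHom.id P := by
    apply MonoidHom.eq_of_eqOn_dense s.2
    rintro _ ⟨i, rfl⟩
    exact h1 i
  ext x
  exact DFunLike.congr_fun h2 x

theorem card_mulAut_dvd_card_genTuple (r : ℕ) : Nat.card (MulAut P) ∣ Nat.card (GenTuple P r) :=
  card_dvd_of_free_action (fun φ s h => genTuple_free r φ s h)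

theorem card_genTuple (f : P →* Multiplicative V) (hf : Function.Surjective f)
    (hker : f.ker ≤ frattini P) {r : ℕ} (hr : Module.finrank (ZMod p) V = r) :
    Nat.card (GenTuple P r) = (∏ i ∈ Finset.range r, (p ^ r - p ^ i)) * Nat.card f.ker ^ r := by
  classical
  let g : V → P := fun v => Classical.choose (hf (Multiplicative.ofAdd v))
  have hg : ∀ v, f (g v) = Multiplicative.ofAdd v := fun v =>
    Classical.choose_spec (hf (Multiplicative.ofAdd v))
  let e : GenTuple P r ≃ {t : Fin r → V // LinearIndependent (ZMod p) t} × (Fin r → f.ker) :=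
    { toFun := fun s => (⟨fun i => Multiplicative.toAdd (f (s.1 i)),
          li_of_closure_eq_top p f hf hr s.1 s.2⟩,
        fun i => ⟨(g (Multiplicative.toAdd (f (s.1 i))))⁻¹ * s.1 i, by
          rw [MonoidHom.mem_ker, map_mul, map_inv, hg]
          simp⟩)
      invFun := fun tk => ⟨fun i => g (tk.1.1 i) * (tk.2 i : P), by
        apply closure_eq_top_of_li p f hker hr
        have : (fun i => Multiplicative.toAdd (f (g (tk.1.1 i) * (tk.2 i : P)))) = tk.1.1 := by
          funext i
          rw [map_mul, hg, MonoidHom.mem_ker.mp (tk.2 i).2]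
          simp
        rw [this]
        exact tk.1.2⟩
      left_inv := by
        intro s
        apply Subtype.ext
        funext i
        simp
      right_inv := by
        rintro ⟨⟨t, ht⟩, k⟩
        have h1 : ∀ i, Multiplicative.toAdd (f (g (t i) * (k i : P))) = t i := by
          intro i
          rw [map_mul, hg, MonoidHom.mem_ker.mp (k i).2]
          simp
        apply Prod.ext
        · apply Subtype.ext
          funext i
          exact h1 i
        · funext i
          apply Subtype.ext
          show (g (Multiplicative.toAdd (f (g (t i) * (k i : P)))))⁻¹ * (g (t i) * (k i : P)) = k i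
          rw [h1 i]
          simp }
  rw [Nat.card_congr e, Nat.card_prod, card_linearIndependent (le_of_eq hr.symm), hr, ZMod.card,
    Nat.card_fun, Nat.card_fin, Fin.prod_univ_eq_prod_range (fun i => p ^ r - p ^ i) r]

end gen

end Cfsg.Agent.Helper7
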