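import Mathlib
import Cfsg.Prelude.Def_Transfer
import Cfsg.Agent.Helper6.Coprime
import Cfsg.Agent.Helper6.FrobNPC
import Cfsg.Agent.Helper7.CoprimeAct
import Cfsg.Agent.Helper7.SylowLemmas
import Cfsg.Agent.Helper7.Hypercenter

set_option autoImplicit false

universe u

namespace Cfsg.Agent.Helper7

open Cfsg

/-- Fixed point congruence for a `q`-subgroup normalizing a subgroup. -/
theorem card_modEq_card_inf_centralizer {G : Type u} [Group G] [Finite G] (q : ℕ)
    [Fact q.Prime] (P X : Subgroup G) (hP : IsPGroup q P)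
    (hPX : P ≤ Subgroup.normalizer (X : Set G)) :
    Nat.card X ≡ Nat.card (X ⊓ Subgroup.centralizer (P : Set G) : Subgroup G) [MOD q] := by
  letI := conjMulDistribMulAction P X hPX
  have hfix := hP.card_modEq_card_fixedPoints X
  have hfixcard : Nat.card (MulAction.fixedPoints P X) =
      Nat.card (X ⊓ Subgroup.centralizer (P : Set G) : Subgroup G) := by
    apply Nat.card_congr
    refine ⟨fun x => ⟨x.1.1, x.1.2, ?_⟩, fun y => ⟨⟨y.1, y.2.1⟩, ?_⟩, ?_, ?_⟩
    · show (x.1 : G) ∈ Subgroup.centralizer (P : Set G)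
      rw [Subgroup.mem_centralizer_iff]
      intro u hu
      have h1 : (⟨u, hu⟩ : P) • x.1 = x.1 := x.2 ⟨u, hu⟩
      have h2 : u * (x.1 : G) * u⁻¹ = (x.1 : G) := congrArg Subtype.val h1
      calc u * (x.1 : G) = (u * (x.1 : G) * u⁻¹) * u := by group
        _ = (x.1 : G) * u := by rw [h2]
    · intro u
      apply Subtype.ext
      show (u : G) * y.1 * (u : G)⁻¹ = y.1
      have h3 := (Subgroup.mem_centralizer_iff.1 y.2.2) u u.2
      rw [h3]
      group
    · intro x
      rfl
    · intro y
      rfl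
  rw [hfixcard] at hfix
  exact hfix

theorem arith_aux_cyc (a b q : ℕ) (ha : a = 1 ∨ a = 2 ∨ a = 4 ∨ a = 8) (hb : b ∣ a)
    (hlt : b < a) (hq : q.Prime) (hq5 : 5 ≤ q) (hd : q ∣ a - b) : a = 8 ∧ b = 1 ∧ q = 7 := by
  have hqle : q ≤ a - b := Nat.le_of_dvd (by omega) hd
  have hb0 : 0 < b := Nat.pos_of_dvd_of_pos hb (by omega)
  rcases ha with rfl | rfl | rfl | rfl
  · omega
  · omega
  · omega
  · have hb8 : b < 8 := hlt
    interval_cases b
    · have hq7 : q ≤ 7 := hqle
      interval_cases q
      · norm_num at hd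
      · norm_num at hq
      · exact ⟨rfl, rfl, rfl⟩
    · have hq7 : q ≤ 6 := hqle
      interval_cases q
      · norm_num at hd
      · norm_num at hq
    · norm_num at hb
    · omega
    · norm_num at hb
    · norm_num at hb
    · norm_num at hb

theorem arith_aux_cyc2 (k r : ℕ) (hk : k ∣ 4) (hr : r ≤ 2) (hr0 : r ≠ 0) :
    k * r = 1 ∨ k * r = 2 ∨ k * r = 4 ∨ k * r = 8 := by
  have hk4 : k ≤ 4 := Nat.le_of_dvd (by norm_num) hk
  have hk0 : 0 < k := Nat.pos_of_dvd_of_pos hk (by norm_num)
  interval_cases k <;> interval_cases r <;> simp_all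

/-- An element of prime power order `q ^ e`, `q ≥ 5`, normalizing a `2`-group with a cyclic
subgroup of index at most `2` centralizes it. -/
theorem centralizes_of_cyclic_index_two {G : Type u} [Group G] [Finite G] :
    ∀ m : ℕ, ∀ X : Subgroup G, Nat.card X = m → IsPGroup 2 X →
      (∃ c : G, (Subgroup.zpowers c).relIndex X ≤ 2) →
      ∀ (y : G) (q e : ℕ), q.Prime → 5 ≤ q → orderOf y = q ^ e →
        y ∈ Subgroup.normalizer (X : Set G) → y ∈ Subgroup.centralizer (X : Set G) := by
  intro m
  induction m using Nat.strong_induction_on with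
  | _ m ih =>
  intro X hm hX ⟨c, hc⟩ y q e hq hq5 hy hyN
  haveI := Fact.mk hq
  have hcop : (orderOf y).Coprime 2 := by
    rw [hy]
    apply Nat.Coprime.pow_left
    rw [Nat.coprime_primes hq Nat.prime_two]
    omega
  have hrel0 : ∀ Y : Subgroup G, (Subgroup.zpowers c).relIndex Y ≠ 0 := by
    intro Y
    have := Subgroup.relIndex_dvd_card (Subgroup.zpowers c) Y
    intro h0
    rw [h0, zero_dvd_iff] at this
    exact Nat.card_pos.ne' this
  have hmin : ∀ Y : Subgroup G, Y ≤ X → Y ≠ X → y ∈ Subgroup.normalizer (Y : Set G) →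
      y ∈ Subgroup.centralizer (Y : Set G) := by
    intro Y hYX hne hyY
    have hlt : Nat.card Y < m := by
      rw [← hm]
      apply lt_of_le_of_ne (Subgroup.card_le_of_le hYX)
      intro h
      exact hne (Subgroup.eq_of_le_of_card_ge hYX h.ge)
    refine ih _ hlt Y rfl (hX.to_le hYX) ⟨c, ?_⟩ y q e hq hq5 hy hyY
    exact (Subgroup.relIndex_le_of_le_right hYX (hrel0 X)).trans hc
  rcases Helper6.min_pair_structure X hX y hyN hcop hmin with h | ⟨hexp, -⟩
  · exact h
  have hexp4 : ∀ x ∈ X, x ^ 4 = 1 := by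
    intro x hx
    rcases hexp x hx with h | ⟨-, h⟩
    · have : x ^ 4 = (x ^ 2) ^ 2 := by rw [← pow_mul]
      rw [this, h, one_pow]
    · exact h
  -- the cyclic part
  haveI : IsCyclic ↥(Subgroup.zpowers c ⊓ X : Subgroup G) :=
    isCyclic_of_injective (Subgroup.inclusion (inf_le_left : Subgroup.zpowers c ⊓ X ≤ _))
      (Subgroup.inclusion_injective _)
  obtain ⟨d, hd⟩ := IsCyclic.exists_generator (α := ↥(Subgroup.zpowers c ⊓ X : Subgroup G))
  have hdo : orderOf (d : G) = Nat.card (Subgroup.zpowers c ⊓ X : Subgroup G) := by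
    rw [← orderOf_eq_card_of_forall_mem_zpowers hd, Subgroup.orderOf_coe]
  have hdX : (d : G) ∈ X := d.2.2
  have hk4 : Nat.card (Subgroup.zpowers c ⊓ X : Subgroup G) ∣ 4 := by
    rw [← hdo]
    exact orderOf_dvd_of_pow_eq_one (hexp4 _ hdX)
  have hcard : Nat.card (Subgroup.zpowers c ⊓ X : Subgroup G) *
      (Subgroup.zpowers c).relIndex X = Nat.card X := by
    have h1 := Subgroup.relIndex_mul_relIndex ⊥ (Subgroup.zpowers c ⊓ X) X bot_le inf_le_right
    rw [Subgroup.relIndex_bot_left, Subgroup.relIndex_bot_left, Subgroup.inf_relIndex_right] at h1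
    exact h1
  have hr0 := hrel0 X
  have hk0 : 0 < Nat.card (Subgroup.zpowers c ⊓ X : Subgroup G) := Nat.card_pos
  have hk4' : Nat.card (Subgroup.zpowers c ⊓ X : Subgroup G) ≤ 4 := Nat.le_of_dvd (by norm_num) hk4
  have hXcases : Nat.card X = 1 ∨ Nat.card X = 2 ∨ Nat.card X = 4 ∨ Nat.card X = 8 := by
    rw [← hcard]
    exact arith_aux_cyc2 _ _ hk4 hc hr0
  -- fixed points
  have hyP : IsPGroup q (Subgroup.zpowers y) := by
    apply IsPGroup.of_card (n := e)
    rw [Nat.card_zpowers, hy]
  have hyNX : Subgroup.zpowers y ≤ Subgroup.normalizer (X : Set G) := by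
    rw [Subgroup.zpowers_le]
    exact hyN
  have hmod := card_modEq_card_inf_centralizer q (Subgroup.zpowers y) X hyP hyNX
  have hFd : Nat.card (X ⊓ Subgroup.centralizer (Subgroup.zpowers y : Set G) : Subgroup G) ∣
      Nat.card X := Subgroup.card_dvd_of_le inf_le_left
  have hFle : Nat.card (X ⊓ Subgroup.centralizer (Subgroup.zpowers y : Set G) : Subgroup G) ≤
      Nat.card X := Subgroup.card_le_of_le inf_le_left
  rcases eq_or_lt_of_le hFle with hFeq | hFlt
  · have hFX : X ⊓ Subgroup.centralizer (Subgroup.zpowers y : Set G) = X :=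
      Subgroup.eq_of_le_of_card_ge inf_le_left hFeq.ge
    rw [Subgroup.mem_centralizer_iff]
    intro x hx
    have hx' : x ∈ X ⊓ Subgroup.centralizer (Subgroup.zpowers y : Set G) := by
      rw [hFX]
      exact hx
    exact ((Subgroup.mem_centralizer_iff.1 hx'.2) y (Subgroup.mem_zpowers y)).symm
  · exfalso
    have hqd : q ∣ Nat.card X -
        Nat.card (X ⊓ Subgroup.centralizer (Subgroup.zpowers y : Set G) : Subgroup G) :=
      (Nat.modEq_iff_dvd' hFle).1 hmod.symm
    obtain ⟨hX8, hF1, hq7⟩ := arith_aux_cyc _ _ q hXcases hFd hFlt hq hq5 hqd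
    have hFbot : X ⊓ Subgroup.centralizer (Subgroup.zpowers y : Set G) = ⊥ :=
      Subgroup.card_eq_one.1 hF1
    -- `d` has order 4
    have hd4 : orderOf (d : G) = 4 := by
      rw [hdo]
      have h1 : (Subgroup.zpowers c).relIndex X ≤ 2 := hc
      have h2 := hcard
      rw [hX8] at h2
      have h3 := Nat.mul_le_mul_left (Nat.card (Subgroup.zpowers c ⊓ X : Subgroup G)) h1
      omega
    have hdne : ∀ t : ℕ, 0 < t → t < 7 → ¬ (y ^ t * (d : G) = (d : G) * y ^ t) := by
      intro t ht0 ht7 hcomm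
      have hcop7 : t.Coprime (orderOf y) := by
        rw [hy, hq7]
        apply Nat.Coprime.pow_right
        rw [Nat.coprime_comm, Nat.Prime.coprime_iff_not_dvd (by norm_num)]
        intro h7
        have := Nat.le_of_dvd ht0 h7
        omega
      obtain ⟨j, hj⟩ := exists_pow_eq_self_of_coprime hcop7
      have hyd : Commute y (d : G) := by
        rw [← hj]
        exact Commute.pow_left hcomm j
      have hdF : (d : G) ∈ X ⊓ Subgroup.centralizer (Subgroup.zpowers y : Set G) := by
        refine ⟨hdX, ?_⟩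
        show (d : G) ∈ Subgroup.centralizer _
        rw [Subgroup.mem_centralizer_iff]
        intro h hh
        obtain ⟨z, rfl⟩ := Subgroup.mem_zpowers_iff.1 hh
        exact (Commute.zpow_left hyd z).eq
      rw [hFbot, Subgroup.mem_bot] at hdF
      rw [hdF, orderOf_one] at hd4
      omega
    have hinj : Function.Injective (fun i : Fin 7 => y ^ (i : ℕ) * (d : G) * (y ^ (i : ℕ))⁻¹) := by
      have key : ∀ i j : ℕ, i < j → j < 7 →
          y ^ i * (d : G) * (y ^ i)⁻¹ ≠ y ^ j * (d : G) * (y ^ j)⁻¹ := by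
        intro i j hij hj7 heq
        apply hdne (j - i) (by omega) (by omega)
        have e1 : y ^ j = y ^ i * y ^ (j - i) := by
          rw [← pow_add]
          congr 1
          omega
        rw [e1] at heq
        have e2 : (d : G) = y ^ (j - i) * (d : G) * (y ^ (j - i))⁻¹ := by
          calc (d : G) = (y ^ i)⁻¹ * (y ^ i * (d : G) * (y ^ i)⁻¹) * y ^ i := by group
            _ = (y ^ i)⁻¹ * (y ^ i * y ^ (j - i) * (d : G) * (y ^ i * y ^ (j - i))⁻¹) * y ^ i := by
                rw [heq]
            _ = y ^ (j - i) * (d : G) * (y ^ (j - i))⁻¹ := by group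
        calc y ^ (j - i) * (d : G) = (y ^ (j - i) * (d : G) * (y ^ (j - i))⁻¹) * y ^ (j - i) := by
              group
          _ = (d : G) * y ^ (j - i) := by rw [← e2]
      intro i j hij
      by_contra hne
      rcases lt_or_gt_of_ne (fun h => hne (Fin.ext h) : (i : ℕ) ≠ (j : ℕ)) with h | h
      · exact key i j h j.2 hij
      · exact key j i h i.2 hij.symm
    have hford : ∀ i : Fin 7, orderOf (y ^ (i : ℕ) * (d : G) * (y ^ (i : ℕ))⁻¹) = 4 := by
      intro i
      rw [orderOf_conj_eq, hd4]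
    have hfX : ∀ i : Fin 7, y ^ (i : ℕ) * (d : G) * (y ^ (i : ℕ))⁻¹ ∈ X := by
      intro i
      exact (Subgroup.mem_normalizer_iff.1 (Subgroup.pow_mem _ hyN i) _).1 hdX
    have hd2 : ((d : G) ^ 2) ^ 2 = 1 := by
      rw [← pow_mul]
      exact hexp4 _ hdX
    classical
    have hcard9 : 9 ≤ Nat.card X := by
      have h1 : ((d : G) ^ 2) ∉
          Finset.univ.image (fun i : Fin 7 => y ^ (i : ℕ) * (d : G) * (y ^ (i : ℕ))⁻¹) := by
        intro hmem
        obtain ⟨i, -, hi⟩ := Finset.mem_image.1 hmem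
        have h2 := hford i
        rw [hi] at h2
        have h3 := orderOf_dvd_of_pow_eq_one hd2
        rw [h2] at h3
        omega
      have h1' : (1 : G) ∉ insert ((d : G) ^ 2)
          (Finset.univ.image (fun i : Fin 7 => y ^ (i : ℕ) * (d : G) * (y ^ (i : ℕ))⁻¹)) := by
        intro hmem
        rcases Finset.mem_insert.1 hmem with h2 | h2
        · have h3 := orderOf_dvd_of_pow_eq_one h2.symm
          rw [hd4] at h3
          omega
        · obtain ⟨i, -, hi⟩ := Finset.mem_image.1 h2
          have h3 := hford i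
          rw [hi, orderOf_one] at h3
          omega
      have hT : (insert (1 : G) (insert ((d : G) ^ 2)
          (Finset.univ.image (fun i : Fin 7 => y ^ (i : ℕ) * (d : G) * (y ^ (i : ℕ))⁻¹)))).card
          = 9 := by
        rw [Finset.card_insert_of_notMem h1', Finset.card_insert_of_notMem h1,
          Finset.card_image_of_injective _ hinj]
        simp
      have hTX : ((insert (1 : G) (insert ((d : G) ^ 2)
          (Finset.univ.image (fun i : Fin 7 => y ^ (i : ℕ) * (d : G) * (y ^ (i : ℕ))⁻¹))) :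
          Finset G) : Set G) ⊆ (X : Set G) := by
        intro x hx
        rw [Finset.mem_coe, Finset.mem_insert, Finset.mem_insert, Finset.mem_image] at hx
        rcases hx with rfl | rfl | ⟨i, -, rfl⟩
        · exact Subgroup.one_mem _
        · exact Subgroup.pow_mem _ hdX 2
        · exact hfX i
      calc 9 = _ := hT.symm
        _ = Set.ncard ((insert (1 : G) (insert ((d : G) ^ 2)
          (Finset.univ.image (fun i : Fin 7 => y ^ (i : ℕ) * (d : G) * (y ^ (i : ℕ))⁻¹))) :
          Finset G) : Set G) := (Set.ncard_coe_finset _).symm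
        _ ≤ Set.ncard (X : Set G) := Set.ncard_le_ncard hTX (Set.toFinite _)
        _ = Nat.card X := rfl
    omega

/-- Frobenius' condition at the prime `2` for groups of order `2 ^ a * n` (`n` odd, prime to
`3`) with an element of order `2 ^ (a - 1)`. -/
theorem frobCond_two_of_cyclic_index_two {G : Type u} [Group G] [Finite G] (a n : ℕ)
    (hG : Nat.card G = 2 ^ a * n) (hn : Odd n) (h3 : ¬ 3 ∣ n)
    (hx : ∃ x : G, orderOf x = 2 ^ (a - 1)) : Helper6.FrobCond 2 G := by
  obtain ⟨x, hx⟩ := hx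
  haveI : Fact (Nat.Prime 2) := ⟨Nat.prime_two⟩
  have hxP : IsPGroup 2 (Subgroup.zpowers x) := by
    apply IsPGroup.of_card (n := a - 1)
    rw [Nat.card_zpowers, hx]
  obtain ⟨P, hP⟩ := hxP.exists_le_sylow
  have hn0 : n ≠ 0 := by
    rintro rfl
    simp at hn
  have hcardS : ∀ Q : Sylow 2 G, Nat.card (Q : Subgroup G) = 2 ^ a := by
    intro Q
    rw [Q.card_eq_multiplicity, hG]
    congr 1
    rw [Nat.factorization_mul (by positivity) hn0, Nat.Prime.factorization_pow Nat.prime_two]
    have h0 : n.factorization 2 = 0 :=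
      Nat.factorization_eq_zero_of_not_dvd hn.not_two_dvd_nat
    simp [h0]
  intro X hX g hg hcop
  by_contra hgC
  obtain ⟨q, j, e, hq, hoe, hyC⟩ :=
    exists_prime_pow_power_notMem (Subgroup.centralizer (X : Set G)) _ g rfl hgC
  have he : e ≠ 0 := by
    rintro rfl
    rw [pow_zero, orderOf_eq_one_iff] at hoe
    rw [hoe] at hyC
    exact hyC (Subgroup.one_mem _)
  have hqd : q ∣ orderOf g := by
    have : q ∣ orderOf (g ^ j) := by rw [hoe]; exact dvd_pow_self q he
    exact this.trans (orderOf_pow_dvd j)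
  have hq2 : q ≠ 2 := by
    rintro rfl
    have := Nat.Coprime.eq_one_of_dvd hcop.symm hqd
    omega
  have hqn : q ∣ n := by
    have h1 : q ∣ 2 ^ a * n := hG ▸ hqd.trans (orderOf_dvd_natCard g)
    rcases (Nat.Prime.dvd_mul hq).1 h1 with h | h
    · exact absurd ((Nat.prime_dvd_prime_iff_eq hq Nat.prime_two).1 (hq.dvd_of_dvd_pow h)) hq2
    · exact h
  have hq5 : 5 ≤ q := by
    have h2 := hq.two_le
    have hq3 : q ≠ 3 := by
      rintro rfl
      exact h3 hqn
    have hq4 : q ≠ 4 := by
      rintro rfl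
      norm_num at hq
    omega
  obtain ⟨Q, hQ⟩ := hX.exists_le_sylow
  obtain ⟨h, rfl⟩ := MulAction.exists_smul_eq G P Q
  have hrel0 : (Subgroup.zpowers (h * x * h⁻¹)).relIndex ((h • P : Sylow 2 G) : Subgroup G) ≠ 0 := by
    have := Subgroup.relIndex_dvd_card (Subgroup.zpowers (h * x * h⁻¹))
      ((h • P : Sylow 2 G) : Subgroup G)
    intro h0
    rw [h0, zero_dvd_iff] at this
    exact Nat.card_pos.ne' this
  have hc : (Subgroup.zpowers (h * x * h⁻¹)).relIndex X ≤ 2 := by
    have hcQ : Subgroup.zpowers (h * x * h⁻¹) ≤ ((h • P : Sylow 2 G) : Subgroup G) := by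
      rw [Subgroup.zpowers_le]
      show h * x * h⁻¹ ∈ h • P
      rw [mem_smul_sylow_iff]
      have e1 : h⁻¹ * (h * x * h⁻¹) * h = x := by group
      rw [e1]
      exact hP (Subgroup.mem_zpowers x)
    have h1 := Subgroup.relIndex_mul_relIndex ⊥ (Subgroup.zpowers (h * x * h⁻¹))
      ((h • P : Sylow 2 G) : Subgroup G) bot_le hcQ
    rw [Subgroup.relIndex_bot_left, Subgroup.relIndex_bot_left, Nat.card_zpowers,
      orderOf_conj_eq, hx, hcardS] at h1
    have h2 : (Subgroup.zpowers (h * x * h⁻¹)).relIndex ((h • P : Sylow 2 G) : Subgroup G) ≤ 2 := by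
      rcases Nat.eq_zero_or_pos a with rfl | ha
      · simp only [Nat.zero_sub, pow_zero, one_mul] at h1
        omega
      · have e2 : 2 ^ a = 2 ^ (a - 1) * 2 := by
          rw [← pow_succ]
          congr 1
          omega
        rw [e2] at h1
        have := Nat.eq_of_mul_eq_mul_left (by positivity) h1
        omega
    exact (Subgroup.relIndex_le_of_le_right hQ hrel0).trans h2
  exact hyC (centralizes_of_cyclic_index_two _ X rfl hX ⟨_, hc⟩ (g ^ j) q e hq hq5 hoe
    (Subgroup.pow_mem _ hg j))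

/-- A group of order `2 ^ a * n` (`n` odd, prime to `3`) with an element of order `2 ^ (a - 1)`
has a normal subgroup of order `n`. -/
theorem normal_two_complement_of_cyclic_index_two {G : Type u} [Group G] [Finite G] (a n : ℕ)
    (hG : Nat.card G = 2 ^ a * n) (hn : Odd n) (h3 : ¬ 3 ∣ n)
    (hx : ∃ x : G, orderOf x = 2 ^ (a - 1)) : ∃ N : Subgroup G, N.Normal ∧ Nat.card N = n := by
  haveI : Fact (Nat.Prime 2) := ⟨Nat.prime_two⟩
  obtain ⟨P, N, hN, hC⟩ := Helper6.hasNormalPComplement_of_frobCond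
    (frobCond_two_of_cyclic_index_two a n hG hn h3 hx)
  refine ⟨N, hN, ?_⟩
  have hn0 : n ≠ 0 := by
    rintro rfl
    simp at hn
  have hcardP : Nat.card (P : Subgroup G) = 2 ^ a := by
    rw [P.card_eq_multiplicity, hG]
    congr 1
    rw [Nat.factorization_mul (by positivity) hn0, Nat.Prime.factorization_pow Nat.prime_two]
    have h0 : n.factorization 2 = 0 :=
      Nat.factorization_eq_zero_of_not_dvd hn.not_two_dvd_nat
    simp [h0]
  have h1 := hC.card_mul_card
  rw [hcardP, hG, mul_comm] at h1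
  exact Nat.eq_of_mul_eq_mul_left (by positivity) h1

end Cfsg.Agent.Helper7
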