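import Mathlib
import Cfsg.Prelude.Def_Solvable
import Cfsg.Agent.Helper7.FrobKer
import Cfsg.Agent.Helper3.Standard

set_option autoImplicit false

universe u

namespace Cfsg.Agent.Helper7

open Cfsg
open Pointwise

/-- Class sizes of a group whose central quotient is Frobenius with abelian preimages of the
kernel and the complement. -/
theorem class_sizes_of_frobenius_mod_center {G : Type u} [Group G] [Finite G] (K H : Subgroup G)
    (hZK : Subgroup.center G ≤ K) (hZH : Subgroup.center G ≤ H) (hK : IsMulCommutative K)
    (hH : IsMulCommutative H)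
    (hFrob : Cfsg.IsFrobeniusComplement (H.map (QuotientGroup.mk' (Subgroup.center G))))
    (hker : Cfsg.frobeniusKernel (H.map (QuotientGroup.mk' (Subgroup.center G))) =
      (K.map (QuotientGroup.mk' (Subgroup.center G)) : Set (G ⧸ Subgroup.center G))) :
    Set.range (fun x : G => (Subgroup.centralizer ({x} : Set G)).index) =
      ({1, K.index, H.index} : Set ℕ) ∧ K.index.Coprime H.index := by
  set π : G →* G ⧸ Subgroup.center G := QuotientGroup.mk' (Subgroup.center G) with hπ
  set Hb : Subgroup (G ⧸ Subgroup.center G) := H.map π with hHb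
  set Kb : Subgroup (G ⧸ Subgroup.center G) := K.map π with hKb
  have hπsurj : Function.Surjective π := QuotientGroup.mk'_surjective _
  have hπ1 : ∀ y : G, π y = 1 ↔ y ∈ Subgroup.center G := fun y => QuotientGroup.eq_one_iff y
  have hmem : ∀ (L : Subgroup G), Subgroup.center G ≤ L → ∀ x : G, π x ∈ L.map π ↔ x ∈ L := by
    intro L hL x
    constructor
    · intro hx
      obtain ⟨l, hl, hlx⟩ := Subgroup.mem_map.1 hx
      have h1 : l⁻¹ * x ∈ Subgroup.center G := by
        rw [← hπ1, map_mul, map_inv, hlx, inv_mul_cancel]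
      have e : x = l * (l⁻¹ * x) := by group
      rw [e]
      exact L.mul_mem hl (hL h1)
    · intro hx
      exact Subgroup.mem_map.2 ⟨x, hx, rfl⟩
  have hcomap : ∀ (L : Subgroup G), Subgroup.center G ≤ L → (L.map π).comap π = L := by
    intro L hL
    ext x
    exact hmem L hL x
  have hKset : (Kb : Set (G ⧸ Subgroup.center G)) = frobeniusKernel Hb := hker.symm
  have hKbn : Kb.Normal := frob_kernel_normal Hb hFrob Kb hKset
  obtain ⟨K', hK', -, -, -, hK'card, hK'cop, hK'ne⟩ := frob_kernel_data Hb hFrob
  have hK'eq : K' = Kb := SetLike.coe_injective (hK'.trans hker)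
  rw [hK'eq] at hK'card hK'cop hK'ne
  have hKidx : K.index = Nat.card Hb := by
    have h1 : K.index = Kb.index := by
      rw [← Subgroup.index_comap_of_surjective Kb hπsurj, hcomap K hZK]
    rw [h1]
    have h2 := Subgroup.card_mul_index Kb
    have h3 : 0 < Nat.card Kb := Nat.card_pos
    exact Nat.eq_of_mul_eq_mul_left h3 (h2.trans hK'card.symm)
  have hHidx : H.index = Nat.card Kb := by
    have h1 : H.index = Hb.index := by
      rw [← Subgroup.index_comap_of_surjective Hb hπsurj, hcomap H hZH]
    rw [h1]
    have h2 := Subgroup.card_mul_index Hb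
    have h3 : 0 < Nat.card Hb := Nat.card_pos
    rw [mul_comm] at hK'card
    exact Nat.eq_of_mul_eq_mul_left h3 (h2.trans hK'card.symm)
  refine ⟨?_, by rw [hKidx, hHidx]; exact hK'cop.symm⟩
  -- the three kinds of centralizers
  have hcentZ : ∀ x : G, x ∈ Subgroup.center G → (Subgroup.centralizer ({x} : Set G)).index = 1 := by
    intro x hx
    rw [Subgroup.index_eq_one, Subgroup.centralizer_eq_top_iff_subset]
    intro y hy
    rw [Set.mem_singleton_iff] at hy
    rw [hy]
    exact hx
  have hcentK : ∀ x : G, x ∈ K → x ∉ Subgroup.center G → Subgroup.centralizer ({x} : Set G) = K := by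
    intro x hxK hxZ
    apply le_antisymm
    · intro g hg
      rw [Subgroup.mem_centralizer_singleton_iff] at hg
      by_contra hgK
      apply hxZ
      rw [← hπ1]
      apply frob_fpf Hb Kb hFrob hKset hKbn (π g) (π x)
      · intro h
        exact hgK ((hmem K hZK g).1 h)
      · exact (hmem K hZK x).2 hxK
      · rw [← map_mul, ← map_mul, hg]
    · intro k hk
      rw [Subgroup.mem_centralizer_singleton_iff]
      have := (inferInstance : IsMulCommutative K).is_comm.comm ⟨k, hk⟩ ⟨x, hxK⟩
      exact congrArg Subtype.val this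
  have hcentH : ∀ x : G, x ∈ H → x ∉ Subgroup.center G → Subgroup.centralizer ({x} : Set G) = H := by
    intro x hxH hxZ
    apply le_antisymm
    · intro g hg
      rw [Subgroup.mem_centralizer_singleton_iff] at hg
      rw [← hmem H hZH g]
      apply frob_centralizer_le Hb hFrob (π x) (π g) ((hmem H hZH x).2 hxH)
      · intro h
        exact hxZ ((hπ1 x).1 h)
      · rw [← map_mul, ← map_mul, hg]
    · intro k hk
      rw [Subgroup.mem_centralizer_singleton_iff]
      have := (inferInstance : IsMulCommutative H).is_comm.comm ⟨k, hk⟩ ⟨x, hxH⟩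
      exact congrArg Subtype.val this
  apply Set.eq_of_subset_of_subset
  · rintro m ⟨x, rfl⟩
    show (Subgroup.centralizer ({x} : Set G)).index ∈ ({1, K.index, H.index} : Set ℕ)
    by_cases hxZ : x ∈ Subgroup.center G
    · rw [hcentZ x hxZ]
      exact Or.inl rfl
    · by_cases hxK : π x ∈ Kb
      · rw [hcentK x ((hmem K hZK x).1 hxK) hxZ]
        exact Or.inr (Or.inl rfl)
      · have h1 : π x ∉ frobeniusKernel Hb := by
          rw [← hKset]
          exact hxK
        have h2 : ¬ (π x = 1 ∨ ∀ g, π x ∉ MulAut.conj g • Hb) := h1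
        push Not at h2
        obtain ⟨-, gb, hgb⟩ := h2
        obtain ⟨g, rfl⟩ := hπsurj gb
        rw [Lead.mem_conj_smul_iff'] at hgb
        have h3 : g⁻¹ * x * g ∈ H := by
          rw [← hmem H hZH]
          rw [map_mul, map_mul, map_inv]
          exact hgb
        have h4 : g⁻¹ * x * g ∉ Subgroup.center G := by
          intro h
          apply hxZ
          have := (inferInstance : (Subgroup.center G).Normal).conj_mem _ h g
          have e : g * (g⁻¹ * x * g) * g⁻¹ = x := by group
          rwa [e] at this
        have h5 := Helper3.centralizer_singleton_map_conj (g⁻¹ * x * g) g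
        have e : g * (g⁻¹ * x * g) * g⁻¹ = x := by group
        rw [e, hcentH _ h3 h4] at h5
        rw [← h5]
        have h6 : (Subgroup.map ((MulAut.conj g : G ≃* G) : G →* G) H).index = H.index :=
          Subgroup.index_map_equiv H (MulAut.conj g)
        exact Or.inr (Or.inr h6)
  · rintro m (rfl | rfl | rfl)
    · exact ⟨1, hcentZ 1 (Subgroup.one_mem _)⟩
    · obtain ⟨⟨kb, hkb⟩, hkb1⟩ := (Subgroup.ne_bot_iff_exists_ne_one (H := Kb)).1 hK'ne
      obtain ⟨k, hk, rfl⟩ := Subgroup.mem_map.1 hkb
      have hkZ : k ∉ Subgroup.center G := by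
        intro h
        apply hkb1
        apply Subtype.ext
        exact (hπ1 k).2 h
      exact ⟨k, by show (Subgroup.centralizer ({k} : Set G)).index = K.index; rw [hcentK k hk hkZ]⟩
    · obtain ⟨⟨hb, hhb⟩, hhb1⟩ := (Subgroup.ne_bot_iff_exists_ne_one (H := Hb)).1 hFrob.1
      obtain ⟨h, hh, rfl⟩ := Subgroup.mem_map.1 hhb
      have hhZ : h ∉ Subgroup.center G := by
        intro h'
        apply hhb1
        apply Subtype.ext
        exact (hπ1 h).2 h'
      exact ⟨h, by show (Subgroup.centralizer ({h} : Set G)).index = H.index; rw [hcentH h hh hhZ]⟩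

end Cfsg.Agent.Helper7
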