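import Mathlib
import Cfsg.Agent.Helper7.FrobCompl
import Cfsg.Agent.Helper7.FrobThm

set_option autoImplicit false

universe u

namespace Cfsg.Agent.Helper7

open Cfsg
open scoped Pointwise

/-- The TI property for conjugates of a Frobenius complement. -/
theorem frob_TI_conj {G : Type u} [Group G] (H : Subgroup G) (hH : IsFrobeniusComplement H)
    (g l x : G) (hx : x ∈ MulAut.conj g • H) (hx1 : x ≠ 1)
    (hlx : l⁻¹ * x * l ∈ MulAut.conj g • H) : l ∈ MulAut.conj g • H := by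
  rw [Lead.mem_conj_smul_iff'] at hx hlx ⊢
  have h1 : g⁻¹ * x * g ≠ 1 := by
    intro h
    apply hx1
    have : x = g * (g⁻¹ * x * g) * g⁻¹ := by group
    rw [this, h]
    group
  have e : (g⁻¹ * l * g)⁻¹ * (g⁻¹ * x * g) * (g⁻¹ * l * g) = g⁻¹ * (l⁻¹ * x * l) * g := by group
  exact (frob_conj_mem_iff H hH _ hx h1 (g⁻¹ * l * g)).1 (by rw [e]; exact hlx)

/-- Nonidentity elements outside the Frobenius kernel act on it without fixed points. -/
theorem frob_inf_centralizer {G : Type u} [Group G] (H K : Subgroup G)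
    (hH : IsFrobeniusComplement H) (hK : (K : Set G) = frobeniusKernel H) (hKn : K.Normal)
    (l : G) (hl : l ∉ K) : K ⊓ Subgroup.centralizer {l} = ⊥ := by
  rw [eq_bot_iff]
  intro k hk
  rw [Subgroup.mem_inf, Subgroup.mem_centralizer_singleton_iff] at hk
  rw [Subgroup.mem_bot]
  exact frob_fpf H K hH hK hKn l k hl hk.1 hk.2

/-- A subgroup of a Frobenius group meeting the kernel trivially lies in a conjugate of the
complement. -/
theorem frob_le_conj_of_inf_kernel {G : Type u} [Group G] [Finite G] (H : Subgroup G)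
    (hH : IsFrobeniusComplement H) (K : Subgroup G) (hK : (K : Set G) = frobeniusKernel H)
    (L : Subgroup G) (hLK : L ⊓ K = ⊥) : ∃ x : G, L ≤ MulAut.conj x • H := by
  have hKn : K.Normal := frob_kernel_normal H hH K hK
  obtain ⟨K', hK', -, -, -, -, -, hKbot'⟩ := frob_kernel_data H hH
  have hKK' : K = K' := SetLike.coe_injective (hK.trans hK'.symm)
  have hKbot : K ≠ ⊥ := hKK' ▸ hKbot'
  by_cases hL : L = ⊥
  · exact ⟨1, by rw [hL]; exact bot_le⟩
  obtain ⟨⟨l₀, hl₀⟩, hl₀1⟩ := Subgroup.ne_bot_iff_exists_ne_one.1 hL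
  have hl₀1' : l₀ ≠ 1 := fun e => hl₀1 (Subtype.ext e)
  have hLK' : ∀ l ∈ L, l ≠ 1 → l ∉ K := by
    intro l hl hl1 hlK
    have : l ∈ L ⊓ K := Subgroup.mem_inf.2 ⟨hl, hlK⟩
    rw [hLK, Subgroup.mem_bot] at this
    exact hl1 this
  have h1 := hLK' l₀ hl₀ hl₀1'
  rw [mem_frob_kernel_iff H K hK] at h1
  push Not at h1
  obtain ⟨-, g, hg⟩ := h1
  refine ⟨g, ?_⟩
  by_contra hcon
  set D : Subgroup G := L ⊓ MulAut.conj g • H with hD
  have hDL : D ≤ L := inf_le_left
  have hD1 : D ≠ ⊥ := by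
    intro h
    have : l₀ ∈ D := Subgroup.mem_inf.2 ⟨hl₀, hg⟩
    rw [h, Subgroup.mem_bot] at this
    exact hl₀1' this
  have hDL' : D ≠ L := by
    intro h
    apply hcon
    rw [← h]
    exact inf_le_right
  refine fpf_no_frobenius K L D ?_ hKbot ?_ hDL hD1 hDL' ?_
  · rw [Subgroup.normalizer_eq_top]
    exact le_top
  · intro l hl hl1
    exact frob_inf_centralizer H K hH hK hKn l (hLK' l hl hl1)
  · intro l hl hlD x hx hlx
    by_contra hx1
    apply hlD
    exact Subgroup.mem_inf.2 ⟨hl, frob_TI_conj H hH g l x (Subgroup.mem_inf.1 hx).2 hx1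
      (Subgroup.mem_inf.1 hlx).2⟩

/-- Of two Frobenius complements, the smaller is conjugate into the larger. -/
theorem frob_complement_conj_le {G : Type u} [Group G] [Finite G] (H H₀ : Subgroup G)
    (hH : IsFrobeniusComplement H) (hH₀ : IsFrobeniusComplement H₀)
    (hle : Nat.card H₀ ≤ Nat.card H) : ∃ g : G, MulAut.conj g • H₀ ≤ H := by
  obtain ⟨K, hK, hKn, hKH, hKHt, hcard, hcop, hKbot⟩ := frob_kernel_data H hH
  obtain ⟨K₀, hK₀, hK₀n, hK₀H, hK₀Ht, hcard₀, hcop₀, hK₀bot⟩ := frob_kernel_data H₀ hH₀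
  have hcardle : Nat.card K ≤ Nat.card K₀ := by
    have h1 : Nat.card K * Nat.card H ≤ Nat.card K₀ * Nat.card H := by
      rw [hcard, ← hcard₀]
      exact Nat.mul_le_mul_left _ hle
    exact Nat.le_of_mul_le_mul_right h1 Nat.card_pos
  have hKK₀ : K ≤ K₀ := by
    rcases frob_normal_dichotomy H₀ hH₀ K₀ hK₀ K hKn with h | h
    · exact (Subgroup.eq_of_le_of_card_ge h hcardle).ge
    · exact h
  have hinf : H₀ ⊓ K = ⊥ := by
    rw [eq_bot_iff, ← hK₀H, inf_comm]
    exact inf_le_inf_right H₀ hKK₀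
  obtain ⟨x, hx⟩ := frob_le_conj_of_inf_kernel H hH K hK H₀ hinf
  refine ⟨x⁻¹, ?_⟩
  intro y hy
  rw [Lead.mem_conj_smul_iff'] at hy
  have h1 := hx hy
  rw [Lead.mem_conj_smul_iff'] at h1
  have e : x⁻¹ * (x⁻¹⁻¹ * y * x⁻¹) * x = y := by group
  rwa [e] at h1

/-- Conjugates of Frobenius complements are nontrivial. -/
theorem conj_smul_ne_bot {G : Type u} [Group G] (H : Subgroup G) (hH : H ≠ ⊥) (g : G) :
    MulAut.conj g • H ≠ ⊥ := by
  intro h
  apply hH
  rw [eq_bot_iff]
  intro y hy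
  have h1 : g * y * g⁻¹ ∈ MulAut.conj g • H := by
    rw [Lead.mem_conj_smul_iff']
    have e : g⁻¹ * (g * y * g⁻¹) * g = y := by group
    rw [e]
    exact hy
  rw [h, Subgroup.mem_bot] at h1
  rw [Subgroup.mem_bot]
  have : y = g⁻¹ * (g * y * g⁻¹) * g := by group
  rw [this, h1]
  group

/-- Frobenius complements of the same group of comparable order are conjugate. -/
theorem frob_complement_conj_aux {G : Type u} [Group G] [Finite G] (H H₀ : Subgroup G)
    (hH : IsFrobeniusComplement H) (hH₀ : IsFrobeniusComplement H₀)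
    (hle : Nat.card H₀ ≤ Nat.card H) : ∃ g : G, MulAut.conj g • H₀ = H := by
  obtain ⟨g, hg⟩ := frob_complement_conj_le H H₀ hH hH₀ hle
  refine ⟨g, ?_⟩
  by_contra hne
  obtain ⟨K, hK, hKn, hKH, hKHt, hcard, hcop, hKbot⟩ := frob_kernel_data H hH
  refine fpf_no_frobenius K H (MulAut.conj g • H₀) ?_ hKbot ?_ hg
    (conj_smul_ne_bot H₀ hH₀.1 g) hne ?_
  · rw [Subgroup.normalizer_eq_top]
    exact le_top
  · intro l hl hl1
    apply frob_inf_centralizer H K hH hK hKn l
    intro hlK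
    have : l ∈ K ⊓ H := Subgroup.mem_inf.2 ⟨hlK, hl⟩
    rw [hKH, Subgroup.mem_bot] at this
    exact hl1 this
  · intro l hl hlD x hx hlx
    by_contra hx1
    exact hlD (frob_TI_conj H₀ hH₀ g l x hx hx1 hlx)

/-- Any two Frobenius complements of a finite group are conjugate. -/
theorem frob_complement_conj {G : Type u} [Group G] [Finite G] (H H₀ : Subgroup G)
    (hH : IsFrobeniusComplement H) (hH₀ : IsFrobeniusComplement H₀) :
    ∃ g : G, MulAut.conj g • H₀ = H := by
  rcases le_total (Nat.card H₀) (Nat.card H) with hle | hle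
  · exact frob_complement_conj_aux H H₀ hH hH₀ hle
  · obtain ⟨g, hg⟩ := frob_complement_conj_aux H₀ H hH₀ hH hle
    refine ⟨g⁻¹, ?_⟩
    rw [← hg, smul_smul, ← map_mul, inv_mul_cancel, map_one, one_smul]

end Cfsg.Agent.Helper7
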