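import Mathlib
import Cfsg.Agent.Helper7.FrobKer

set_option autoImplicit false

universe u

namespace Cfsg.Agent.Helper7

open Cfsg
open scoped Pointwise

/-- For `h` outside the Frobenius kernel `K`, the map `k ↦ k⁻¹ h⁻¹ k h` is injective on `K`. -/
theorem frob_comm_injective {G : Type u} [Group G] (H K : Subgroup G) (hH : IsFrobeniusComplement H)
    (hK : (K : Set G) = frobeniusKernel H) (hKn : K.Normal) (h : G) (hh : h ∉ K) (k m : G)
    (hk : k ∈ K) (hm : m ∈ K) (e : k⁻¹ * h⁻¹ * k * h = m⁻¹ * h⁻¹ * m * h) : k = m := by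
  have h3 : k⁻¹ * h⁻¹ * k = m⁻¹ * h⁻¹ * m := mul_right_cancel e
  have h4 : h⁻¹ * (k * m⁻¹) = (k * m⁻¹) * h⁻¹ := by
    calc h⁻¹ * (k * m⁻¹) = k * (k⁻¹ * h⁻¹ * k) * m⁻¹ := by group
      _ = k * (m⁻¹ * h⁻¹ * m) * m⁻¹ := by rw [h3]
      _ = (k * m⁻¹) * h⁻¹ := by group
  have h5 : (k * m⁻¹) * h = h * (k * m⁻¹) := by
    calc (k * m⁻¹) * h = h * (h⁻¹ * (k * m⁻¹)) * h := by group
      _ = h * ((k * m⁻¹) * h⁻¹) * h := by rw [h4]
      _ = h * (k * m⁻¹) := by group
  have h6 := frob_fpf H K hH hK hKn h (k * m⁻¹) hh (K.mul_mem hk (K.inv_mem hm)) h5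
  exact mul_inv_eq_one.1 h6

/-- Fixed points lift modulo a normal subgroup inside the Frobenius kernel. -/
theorem frob_lift_fixed {G : Type u} [Group G] [Finite G] (H K : Subgroup G)
    (hH : IsFrobeniusComplement H) (hK : (K : Set G) = frobeniusKernel H) (hKn : K.Normal)
    (N : Subgroup G) (hN : N.Normal) (hNK : N ≤ K) (h : G) (hh : h ∉ K) (k : G) (hk : k ∈ K)
    (hc : k⁻¹ * h⁻¹ * k * h ∈ N) : k ∈ N := by
  have hmem : ∀ n : N, (n : G)⁻¹ * h⁻¹ * (n : G) * h ∈ N := by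
    intro n
    have h1 : h⁻¹ * (n : G) * h ∈ N := by
      have := hN.conj_mem n n.2 h⁻¹
      simpa using this
    have h2 := N.mul_mem (N.inv_mem n.2) h1
    have e : (n : G)⁻¹ * (h⁻¹ * (n : G) * h) = (n : G)⁻¹ * h⁻¹ * (n : G) * h := by group
    rwa [e] at h2
  let ψ : N → N := fun n => ⟨(n : G)⁻¹ * h⁻¹ * (n : G) * h, hmem n⟩
  have hinj : Function.Injective ψ := by
    intro a b hab
    apply Subtype.ext
    exact frob_comm_injective H K hH hK hKn h hh a b (hNK a.2) (hNK b.2)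
      (congrArg Subtype.val hab)
  obtain ⟨n, hn⟩ := Finite.surjective_of_injective hinj ⟨_, hc⟩
  have h1 : (n : G)⁻¹ * h⁻¹ * (n : G) * h = k⁻¹ * h⁻¹ * k * h := congrArg Subtype.val hn
  have h2 := frob_comm_injective H K hH hK hKn h hh n k (hNK n.2) hk h1
  rw [← h2]
  exact n.2

/-- Quotients of Frobenius groups by normal subgroups not containing the kernel are Frobenius. -/
theorem frob_quotient {G : Type u} [Group G] [Finite G] (R : Subgroup G)
    (hR : IsFrobeniusComplement R) (N : Subgroup G) [hN : N.Normal]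
    (hKN : ¬ frobeniusKernel R ⊆ N) :
    IsFrobeniusComplement (R.map (QuotientGroup.mk' N)) ∧
      frobeniusKernel (R.map (QuotientGroup.mk' N)) = QuotientGroup.mk' N '' frobeniusKernel R := by
  obtain ⟨K, hK, hKn, hKR, hKRt, hcard, hcop, hKbot⟩ := frob_kernel_data R hR
  have hNK : N ≤ K := by
    rcases frob_normal_dichotomy R hR K hK N hN with h | h
    · exfalso
      apply hKN
      rw [← hK]
      exact h
    · exact h
  set π : G →* G ⧸ N := QuotientGroup.mk' N with hπ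
  have hπsurj : Function.Surjective π := QuotientGroup.mk'_surjective _
  have hπ1 : ∀ y : G, π y = 1 ↔ y ∈ N := fun y => QuotientGroup.eq_one_iff y
  have hπeq : ∀ a b : G, π a = π b → a⁻¹ * b ∈ N := by
    intro a b hab
    rw [← hπ1, map_mul, map_inv, hab, inv_mul_cancel]
  have hRK : ∀ r ∈ R, r ∈ K → r = 1 := by
    intro r hr hrK
    have : r ∈ K ⊓ R := Subgroup.mem_inf.2 ⟨hrK, hr⟩
    rwa [hKR, Subgroup.mem_bot] at this
  have hRK' : ∀ r ∈ R, r ≠ 1 → r ∉ K := fun r hr h1 hrK => h1 (hRK r hr hrK)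
  -- elements of the image of `R` and of `K`
  have hKR' : ∀ k ∈ K, ∀ r ∈ R, π k = π r → r = 1 ∧ k ∈ N := by
    intro k hk r hr hkr
    have h1 := hπeq r k hkr.symm
    have h2 : r⁻¹ ∈ K := by
      have := K.mul_mem (hNK h1) (K.inv_mem hk)
      simpa using this
    have h3 : r = 1 := by
      have := hRK r⁻¹ (R.inv_mem hr) h2
      simpa using this
    refine ⟨h3, ?_⟩
    rw [h3] at h1
    simpa using h1
  obtain ⟨k₀, hk₀K, hk₀N⟩ : ∃ k₀, k₀ ∈ K ∧ k₀ ∉ N := by
    obtain ⟨k₀, hk₀, hk₀N⟩ := Set.not_subset.1 hKN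
    rw [← hK] at hk₀
    exact ⟨k₀, hk₀, hk₀N⟩
  have hFrob : IsFrobeniusComplement (R.map π) := by
    refine ⟨?_, ?_, ?_⟩
    · intro h
      obtain ⟨⟨r, hr⟩, hr1⟩ := Subgroup.ne_bot_iff_exists_ne_one.1 hR.1
      have hr1' : r ≠ 1 := fun e => hr1 (Subtype.ext e)
      have h2 : π r ∈ R.map π := Subgroup.mem_map.2 ⟨r, hr, rfl⟩
      rw [h, Subgroup.mem_bot, hπ1] at h2
      exact hRK' r hr hr1' (hNK h2)
    · intro h
      have h2 : π k₀ ∈ R.map π := by
        rw [h]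
        trivial
      obtain ⟨r, hr, hrk⟩ := Subgroup.mem_map.1 h2
      exact hk₀N (hKR' k₀ hk₀K r hr hrk.symm).2
    · intro gb hgb
      obtain ⟨g, rfl⟩ := hπsurj gb
      rw [eq_bot_iff]
      intro xb hxb
      rw [Subgroup.mem_inf, Lead.mem_conj_smul_iff'] at hxb
      obtain ⟨r, hr, rfl⟩ := Subgroup.mem_map.1 hxb.1
      obtain ⟨r', hr', hrr'⟩ := Subgroup.mem_map.1 hxb.2
      rw [Subgroup.mem_bot]
      by_contra hne
      have hr1 : r ≠ 1 := by
        intro e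
        apply hne
        rw [e, map_one]
      -- decompose `g = k * s`
      have hg : g ∈ (K ⊔ R : Subgroup G) := by
        rw [hKRt]
        trivial
      rw [← SetLike.mem_coe, Subgroup.normal_mul, Set.mem_mul] at hg
      obtain ⟨k, hk, s, hs, rfl⟩ := hg
      have h1 : r'⁻¹ * ((k * s)⁻¹ * r * (k * s)) ∈ N := by
        apply hπeq
        simp only [hrr', map_mul, map_inv]
      -- conjugate by `s`
      have h2 : s * (r'⁻¹ * ((k * s)⁻¹ * r * (k * s))) * s⁻¹ ∈ N := hN.conj_mem _ h1 s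
      have e2 : s * (r'⁻¹ * ((k * s)⁻¹ * r * (k * s))) * s⁻¹ =
          (s * r' * s⁻¹)⁻¹ * r * (r⁻¹ * k⁻¹ * r * k) := by group
      rw [e2] at h2
      have hc : r⁻¹ * k⁻¹ * r * k ∈ K := by
        have h3 : r⁻¹ * k⁻¹ * r ∈ K := by
          have := hKn.conj_mem k⁻¹ (K.inv_mem hk) r⁻¹
          simpa using this
        exact K.mul_mem h3 hk
      have h4 : (s * r' * s⁻¹)⁻¹ * r ∈ K := by
        have := K.mul_mem (hNK h2) (K.inv_mem hc)
        rwa [mul_inv_cancel_right] at this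
      have h5 : (s * r' * s⁻¹)⁻¹ * r = 1 :=
        hRK _ (R.mul_mem (R.inv_mem (R.mul_mem (R.mul_mem hs hr') (R.inv_mem hs))) hr) h4
      rw [h5, one_mul] at h2
      have h6 : k⁻¹ * r⁻¹ * k * r ∈ N := by
        have := N.inv_mem h2
        have e : (r⁻¹ * k⁻¹ * r * k)⁻¹ = k⁻¹ * r⁻¹ * k * r := by group
        rwa [e] at this
      have h7 := frob_lift_fixed R K hR hK hKn N hN hNK r (hRK' r hr hr1) k hk h6
      apply hgb
      refine Subgroup.mem_map.2 ⟨s, hs, ?_⟩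
      rw [map_mul, (hπ1 k).2 h7, one_mul]
  refine ⟨hFrob, ?_⟩
  -- the kernel
  have himg : π '' frobeniusKernel R = ((K.map π : Subgroup (G ⧸ N)) : Set (G ⧸ N)) := by
    rw [← hK]
    rfl
  rw [himg]
  have hsub : ((K.map π : Subgroup (G ⧸ N)) : Set (G ⧸ N)) ⊆ frobeniusKernel (R.map π) := by
    rintro xb hxb
    obtain ⟨k, hk, rfl⟩ := Subgroup.mem_map.1 hxb
    by_cases h1 : π k = 1
    · left
      exact h1
    · right
      intro gb hmem
      obtain ⟨g, rfl⟩ := hπsurj gb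
      rw [Lead.mem_conj_smul_iff'] at hmem
      obtain ⟨r, hr, hrk⟩ := Subgroup.mem_map.1 hmem
      have h2 : g⁻¹ * k * g ∈ K := by
        have := hKn.conj_mem k hk g⁻¹
        simpa using this
      have h3 := hKR' (g⁻¹ * k * g) h2 r hr (by
        rw [hrk, map_mul, map_mul, map_inv])
      apply h1
      rw [hπ1]
      have h4 := hN.conj_mem _ h3.2 g
      have e : g * (g⁻¹ * k * g) * g⁻¹ = k := by group
      rwa [e] at h4
  symm
  apply Set.eq_of_subset_of_ncard_le hsub _ (Set.toFinite _)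
  have hinf : R.map π ⊓ K.map π = ⊥ := by
    rw [eq_bot_iff]
    intro xb hxb
    rw [Subgroup.mem_inf] at hxb
    obtain ⟨r, hr, rfl⟩ := Subgroup.mem_map.1 hxb.1
    obtain ⟨k, hk, hkr⟩ := Subgroup.mem_map.1 hxb.2
    rw [Subgroup.mem_bot, (hKR' k hk r hr hkr).1, map_one]
  haveI : (K.map π).Normal := hKn.map π hπsurj
  have hsup : R.map π ⊔ K.map π = ⊤ := by
    rw [← Subgroup.map_sup, sup_comm, hKRt, ← MonoidHom.range_eq_map, MonoidHom.range_eq_top]
    exact hπsurj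
  have h1 := Lead.card_sup_of_inf_eq_bot (R.map π) (K.map π) hinf
  rw [hsup, Subgroup.card_top] at h1
  have h2 := Lead.card_frobeniusKernel (R.map π) hFrob
  have h3 := (R.map π).card_mul_index
  rw [h1] at h3
  have h4 : (R.map π).index = Nat.card (K.map π) := Nat.eq_of_mul_eq_mul_left Nat.card_pos h3
  have e1 : (frobeniusKernel (R.map π)).ncard = Nat.card (frobeniusKernel (R.map π)) := rfl
  have e2 : ((K.map π : Subgroup (G ⧸ N)) : Set (G ⧸ N)).ncard = Nat.card (K.map π) := rfl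
  rw [e1, e2, h2, h4]

end Cfsg.Agent.Helper7
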