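import Mathlib
import Cfsg.Agent.Helper7.Basic
import Cfsg.Agent.Helper7.Frobenius

set_option autoImplicit false

namespace Cfsg.Agent.Helper7

universe u
variable {G : Type u} [Group G]

/-- If `p` divides the order of `s`, the number of `p ^ a`-th roots of `s` is divisible by
`p ^ a`. -/
theorem prime_pow_dvd_card_pow_eq [Finite G] (p a : ℕ) (hp : p.Prime) (s : G)
    (hs : p ∣ orderOf s) : p ^ a ∣ Nat.card {x : G // x ^ (p ^ a) = s} := by
  classical
  let _ : Fintype G := Fintype.ofFinite _
  rw [Nat.card_eq_fintype_card, Fintype.card_subtype]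
  rw [Finset.card_eq_sum_card_image (fun x => Subgroup.zpowers x)]
  apply Finset.dvd_sum
  intro C hC
  rw [Finset.mem_image] at hC
  obtain ⟨x0, hx0, rfl⟩ := hC
  rw [Finset.mem_filter] at hx0
  have hx0s : x0 ^ (p ^ a) = s := hx0.2
  have hord : p ^ (a + 1) ∣ orderOf x0 := by
    obtain ⟨j, o', ho', ho⟩ :=
      Nat.exists_eq_pow_mul_and_not_dvd (orderOf_pos x0).ne' p hp.ne_one
    have h1 : a + 1 ≤ j := by
      by_contra hcon
      push Not at hcon
      have h2 : p ^ j ∣ Nat.gcd (orderOf x0) (p ^ a) :=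
        Nat.dvd_gcd (by rw [ho]; exact Dvd.intro _ rfl) (pow_dvd_pow p (by omega))
      obtain ⟨g', hg'⟩ := h2
      have h3 : orderOf s = orderOf x0 / Nat.gcd (orderOf x0) (p ^ a) := by
        rw [← hx0s]
        exact orderOf_pow x0
      have h4 : Nat.gcd (orderOf x0) (p ^ a) * orderOf s = orderOf x0 := by
        rw [h3]
        exact Nat.mul_div_cancel' (Nat.gcd_dvd_left _ _)
      have h5 : p ^ j * (g' * orderOf s) = p ^ j * o' := by
        rw [← mul_assoc, ← hg', h4, ho]
      have h6 : g' * orderOf s = o' := Nat.eq_of_mul_eq_mul_left (pow_pos hp.pos j) h5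
      exact ho' (hs.trans (Dvd.intro_left _ h6))
    rw [ho]
    exact (pow_dvd_pow p h1).trans (Dvd.intro _ rfl)
  have hpa : p ^ a ∣ orderOf x0 := (pow_dvd_pow p (Nat.le_succ a)).trans hord
  have ht0 : orderOf (x0 ^ (orderOf x0 / p ^ a)) = p ^ a :=
    orderOf_pow_orderOf_div (orderOf_pos x0).ne' hpa
  have hΩ : Nat.card (Subgroup.zpowers (x0 ^ (orderOf x0 / p ^ a))) = p ^ a := by
    rw [Nat.card_zpowers, ht0]
  have hΩle : Subgroup.zpowers (x0 ^ (orderOf x0 / p ^ a)) ≤ Subgroup.zpowers x0 :=
    Subgroup.zpowers_le.2 (Subgroup.pow_mem _ (Subgroup.mem_zpowers x0) _)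
  have hΩpow : ∀ t ∈ Subgroup.zpowers (x0 ^ (orderOf x0 / p ^ a)), t ^ (p ^ a) = 1 := by
    intro t ht
    have h1 : (⟨t, ht⟩ : Subgroup.zpowers (x0 ^ (orderOf x0 / p ^ a))) ^
        Nat.card (Subgroup.zpowers (x0 ^ (orderOf x0 / p ^ a))) = 1 := pow_card_eq_one'
    rw [hΩ] at h1
    exact congrArg Subtype.val h1
  have hS : {x : G | x ^ (p ^ a) = s ∧ Subgroup.zpowers x = Subgroup.zpowers x0} =
      QuotientGroup.mk ⁻¹' ((QuotientGroup.mk :
        G → G ⧸ Subgroup.zpowers (x0 ^ (orderOf x0 / p ^ a))) ''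
        {x : G | x ^ (p ^ a) = s ∧ Subgroup.zpowers x = Subgroup.zpowers x0}) := by
    apply Set.Subset.antisymm
    · intro x hx
      exact ⟨x, hx, rfl⟩
    · rintro x ⟨y, ⟨hys, hyz⟩, hyx⟩
      have ht : y⁻¹ * x ∈ Subgroup.zpowers (x0 ^ (orderOf x0 / p ^ a)) := QuotientGroup.eq.1 hyx
      have hxy : x = y * (y⁻¹ * x) := by group
      have hty : y⁻¹ * x ∈ Subgroup.zpowers y := hyz ▸ hΩle ht
      have hcomm : Commute y (y⁻¹ * x) := by
        obtain ⟨i, hi⟩ := Subgroup.mem_zpowers_iff.1 hty
        rw [← hi]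
        exact (Commute.refl y).zpow_right i
      have hoy : orderOf y = orderOf x0 := by
        rw [← Nat.card_zpowers, hyz, Nat.card_zpowers]
      have htp := hΩpow _ ht
      have htpow : ∀ e : ℕ, p ^ a ∣ e → (y⁻¹ * x) ^ e = 1 := by
        rintro e ⟨e', rfl⟩
        rw [pow_mul, htp, one_pow]
      have hox : orderOf (y * (y⁻¹ * x)) = orderOf y := by
        apply orderOf_eq_of_pow_and_pow_div_prime (orderOf_pos y)
        · rw [hcomm.mul_pow, pow_orderOf_eq_one, one_mul]
          exact htpow _ (hoy ▸ hpa)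
        · intro q hq hqo
          rw [hcomm.mul_pow]
          have h1 : p ^ a ∣ orderOf y / q := by
            rw [hoy]
            rw [hoy] at hqo
            by_cases hqp : q = p
            · subst hqp
              obtain ⟨e, he⟩ := hord
              have h9 : q ^ (a + 1) * e = q ^ a * e * q := by ring
              rw [he, h9, Nat.mul_div_cancel _ hq.pos]
              exact Dvd.intro _ rfl
            · obtain ⟨e, he⟩ := hqo
              rw [he, Nat.mul_div_cancel_left _ hq.pos]
              have h2 : Nat.Coprime (p ^ a) q :=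
                Nat.Coprime.pow_left a ((Nat.coprime_primes hp hq).2 (Ne.symm hqp))
              apply h2.dvd_of_dvd_mul_left
              rw [← he]
              exact hpa
          rw [htpow _ h1, mul_one]
          apply pow_ne_one_of_lt_orderOf
          · intro h0
            have h2 := Nat.div_mul_cancel hqo
            rw [h0, zero_mul] at h2
            exact (orderOf_pos y).ne' h2.symm
          · exact Nat.div_lt_self (orderOf_pos y) hq.one_lt
      refine ⟨?_, ?_⟩
      · show x ^ (p ^ a) = s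
        rw [hxy, hcomm.mul_pow, htp, mul_one, hys]
      · show Subgroup.zpowers x = Subgroup.zpowers x0
        rw [← hyz, hxy]
        apply Subgroup.eq_of_le_of_card_ge
        · exact Subgroup.zpowers_le.2 (Subgroup.mul_mem _ (Subgroup.mem_zpowers y) hty)
        · rw [Nat.card_zpowers, Nat.card_zpowers, hox]
  have hcard : (Finset.filter (fun x => Subgroup.zpowers x = Subgroup.zpowers x0)
      (Finset.filter (fun x => x ^ (p ^ a) = s) Finset.univ)).card =
      Nat.card {x : G | x ^ (p ^ a) = s ∧ Subgroup.zpowers x = Subgroup.zpowers x0} := by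
    rw [Nat.card_eq_fintype_card, ← Set.toFinset_card]
    congr 1
    ext x
    simp
  rw [hcard, hS, QuotientGroup.card_preimage_mk, hΩ]
  exact Dvd.intro _ rfl

end Cfsg.Agent.Helper7
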