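import Mathlib

set_option autoImplicit false

namespace Cfsg.Agent.Helper7

open scoped commutatorElement

/-- A Heisenberg-type group: a central extension of `ZMod m × ZMod n` by `ZMod n` (for `n ∣ m`). -/
@[ext]
structure Heis (m n : ℕ) (h : n ∣ m) where
  a : ZMod m
  b : ZMod n
  c : ZMod n

namespace Heis

variable {m n : ℕ} {h : n ∣ m}

instance : Mul (Heis m n h) :=
  ⟨fun x y => ⟨x.a + y.a, x.b + y.b, x.c + y.c + ZMod.castHom h (ZMod n) x.a * y.b⟩⟩

instance : One (Heis m n h) := ⟨⟨0, 0, 0⟩⟩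

instance : Inv (Heis m n h) :=
  ⟨fun x => ⟨-x.a, -x.b, -x.c + ZMod.castHom h (ZMod n) x.a * x.b⟩⟩

theorem mul_a (x y : Heis m n h) : (x * y).a = x.a + y.a := rfl
theorem mul_b (x y : Heis m n h) : (x * y).b = x.b + y.b := rfl
theorem mul_c (x y : Heis m n h) :
    (x * y).c = x.c + y.c + ZMod.castHom h (ZMod n) x.a * y.b := rfl
theorem one_a : (1 : Heis m n h).a = 0 := rfl
theorem one_b : (1 : Heis m n h).b = 0 := rfl
theorem one_c : (1 : Heis m n h).c = 0 := rfl
theorem inv_a (x : Heis m n h) : (x⁻¹).a = -x.a := rfl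
theorem inv_b (x : Heis m n h) : (x⁻¹).b = -x.b := rfl
theorem inv_c (x : Heis m n h) : (x⁻¹).c = -x.c + ZMod.castHom h (ZMod n) x.a * x.b := rfl

instance : Group (Heis m n h) where
  mul_assoc := by
    intro x y z
    ext
    · simp only [mul_a]; ring
    · simp only [mul_b]; ring
    · simp only [mul_c, mul_a, mul_b, map_add]; ring
  one_mul := by
    intro x
    ext
    · simp only [mul_a, one_a]; ring
    · simp only [mul_b, one_b]; ring
    · simp only [mul_c, one_a, one_c, map_zero]; ring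
  mul_one := by
    intro x
    ext
    · simp only [mul_a, one_a]; ring
    · simp only [mul_b, one_b]; ring
    · simp only [mul_c, one_b, one_c]; ring
  inv_mul_cancel := by
    intro x
    ext
    · simp only [mul_a, inv_a, one_a]; ring
    · simp only [mul_b, inv_b, one_b]; ring
    · simp only [mul_c, inv_a, inv_c, one_c, map_neg]; ring

instance [NeZero m] [NeZero n] : Finite (Heis m n h) :=
  Finite.of_injective (fun x : Heis m n h => (x.a, x.b, x.c)) (by
    intro x y hxy
    simp only [Prod.mk.injEq] at hxy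
    exact Heis.ext hxy.1 hxy.2.1 hxy.2.2)

/-- The projection onto `ZMod m × ZMod n`. -/
def proj (m n : ℕ) (h : n ∣ m) : Heis m n h →* Multiplicative (ZMod m × ZMod n) where
  toFun x := Multiplicative.ofAdd (x.a, x.b)
  map_one' := rfl
  map_mul' := fun _ _ => rfl

theorem proj_surjective : Function.Surjective (proj m n h) := by
  intro y
  exact ⟨⟨(Multiplicative.toAdd y).1, (Multiplicative.toAdd y).2, 0⟩, rfl⟩

theorem mem_ker_proj (x : Heis m n h) : x ∈ (proj m n h).ker ↔ x.a = 0 ∧ x.b = 0 := by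
  rw [MonoidHom.mem_ker]
  constructor
  · intro hx
    have h1 : (x.a, x.b) = (0, 0) := hx
    exact ⟨(Prod.mk.inj h1).1, (Prod.mk.inj h1).2⟩
  · rintro ⟨h1, h2⟩
    show Multiplicative.ofAdd (x.a, x.b) = 1
    rw [h1, h2]
    rfl

theorem ker_proj_le_center : (proj m n h).ker ≤ Subgroup.center (Heis m n h) := by
  intro x hx
  rw [mem_ker_proj] at hx
  rw [Subgroup.mem_center_iff]
  intro y
  ext
  · simp only [mul_a, hx.1]; ring
  · simp only [mul_b, hx.2]; ring
  · simp only [mul_c, hx.1, hx.2, map_zero]; ring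

theorem ker_proj_le_commutator : (proj m n h).ker ≤ commutator (Heis m n h) := by
  intro x hx
  rw [mem_ker_proj] at hx
  obtain ⟨c', hc'⟩ := ZMod.ringHom_surjective (ZMod.castHom h (ZMod n)) x.c
  have h1 : x = ⁅(⟨c', 0, 0⟩ : Heis m n h), (⟨0, 1, 0⟩ : Heis m n h)⁆ := by
    rw [commutatorElement_def]
    ext
    · simp only [mul_a, inv_a, hx.1]; ring
    · simp only [mul_b, inv_b, hx.2]; ring
    · simp only [mul_c, mul_a, mul_b, inv_a, inv_b, inv_c, map_neg, map_add, map_zero, hc']; ring
  rw [h1, commutator_def]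
  exact Subgroup.commutator_mem_commutator (Subgroup.mem_top _) (Subgroup.mem_top _)

/-- The kernel of the projection is `ZMod n`. -/
def kerEquiv (m n : ℕ) (h : n ∣ m) : (proj m n h).ker ≃* Multiplicative (ZMod n) where
  toFun x := Multiplicative.ofAdd x.1.c
  invFun y := ⟨⟨0, 0, Multiplicative.toAdd y⟩, (mem_ker_proj _).2 ⟨rfl, rfl⟩⟩
  left_inv := by
    intro x
    have hx := (mem_ker_proj x.1).1 x.2
    apply Subtype.ext
    ext
    · exact hx.1.symm
    · exact hx.2.symm
    · rfl
  right_inv := fun _ => rfl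
  map_mul' := by
    intro x y
    have hy := (mem_ker_proj y.1).1 y.2
    show Multiplicative.ofAdd (x.1 * y.1).c = Multiplicative.ofAdd x.1.c * Multiplicative.ofAdd y.1.c
    rw [mul_c, hy.2, mul_zero, add_zero]
    rfl

end Heis

end Cfsg.Agent.Helper7
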