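import Mathlib
import Cfsg.Prelude.Def_Classical
import Cfsg.Agent.Helper7.OrthChain
import Cfsg.Agent.Helper7.SympCard
import Cfsg.Agent.S0289

set_option autoImplicit false

namespace Cfsg.Agent.Helper7.OrthPlus

open Matrix Cfsg.Agent.Helper7.OrthChain Cfsg.Agent.Helper7.SympGen Cfsg.Agent.Helper7.SympCard

/-- removing one point from a subtype -/
lemma card_ne_subtype {α : Type*} [Finite α] (p : α → Prop) (a : α) (ha : p a) :
    Nat.card {w : α // p w ∧ w ≠ a} + 1 = Nat.card {w : α // p w} := by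
  classical
  haveI := Fintype.ofFinite α
  rw [Nat.card_eq_fintype_card, Nat.card_eq_fintype_card, Fintype.card_subtype,
    Fintype.card_subtype]
  have h1 : (Finset.univ.filter (fun w => p w ∧ w ≠ a)) = (Finset.univ.filter p).erase a := by
    ext w
    simp [and_comm]
  rw [h1, Finset.card_erase_of_mem (by simp [ha])]
  exact Nat.sub_add_cancel (Finset.card_pos.mpr ⟨a, by simp [ha]⟩)

variable {F : Type*} [Field F] (m : ℕ)

/-- polar form of `quadFormPlus` -/
def Bp (u v : Fin m ⊕ Fin m → F) : F :=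
  ∑ i : Fin m, (u (Sum.inl i) * v (Sum.inr i) + u (Sum.inr i) * v (Sum.inl i))

lemma qdata : QData (Cfsg.quadFormPlus m F) (Bp (F := F) m) where
  polar u v := by
    unfold Cfsg.quadFormPlus Bp
    simp only [Pi.add_apply]
    rw [← Finset.sum_add_distrib, ← Finset.sum_add_distrib]
    apply Finset.sum_congr rfl
    intro i _
    ring
  smul c v := by
    unfold Cfsg.quadFormPlus
    simp only [Pi.smul_apply, smul_eq_mul]
    rw [Finset.mul_sum]
    apply Finset.sum_congr rfl
    intro i _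
    ring
  add_left u u' v := by
    unfold Bp
    simp only [Pi.add_apply]
    rw [← Finset.sum_add_distrib]
    apply Finset.sum_congr rfl
    intro i _
    ring
  smul_left c u v := by
    unfold Bp
    simp only [Pi.smul_apply, smul_eq_mul]
    rw [Finset.mul_sum]
    apply Finset.sum_congr rfl
    intro i _
    ring
  symm u v := by
    unfold Bp
    apply Finset.sum_congr rfl
    intro i _
    ring

lemma Bp_single_inl (v : Fin m ⊕ Fin m → F) (i : Fin m) :
    Bp m v (Pi.single (Sum.inl i) 1) = v (Sum.inr i) := by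
  unfold Bp
  simp [Pi.single_apply]

lemma Bp_single_inr (v : Fin m ⊕ Fin m → F) (i : Fin m) :
    Bp m v (Pi.single (Sum.inr i) 1) = v (Sum.inl i) := by
  unfold Bp
  simp [Pi.single_apply]

lemma Q_single_inl (i : Fin m) :
    Cfsg.quadFormPlus m F (Pi.single (Sum.inl i) 1) = 0 := by
  unfold Cfsg.quadFormPlus
  simp [Pi.single_apply]

lemma Q_single_inr (i : Fin m) :
    Cfsg.quadFormPlus m F (Pi.single (Sum.inr i) 1) = 0 := by
  unfold Cfsg.quadFormPlus
  simp [Pi.single_apply]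

lemma hns : ∀ v : Fin m ⊕ Fin m → F, (∀ u, Bp m u v = 0) → Cfsg.quadFormPlus m F v = 0 → v = 0 := by
  intro v hv _
  funext j
  rcases j with i | i
  · have := hv (Pi.single (Sum.inr i) 1)
    rw [(qdata m).symm, Bp_single_inr] at this
    exact this
  · have := hv (Pi.single (Sum.inl i) 1)
    rw [(qdata m).symm, Bp_single_inl] at this
    exact this

/-- the basis vectors of the hyperbolic pairs of index at least `k` -/
def Sk (k : ℕ) : Set (Fin m ⊕ Fin m → F) :=
  {v | ∃ i : Fin m, k ≤ i.val ∧ (v = Pi.single (Sum.inl i) 1 ∨ v = Pi.single (Sum.inr i) 1)}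

def ek (k : ℕ) : Fin m ⊕ Fin m → F := if h : k < m then Pi.single (Sum.inl ⟨k, h⟩) 1 else 0

def fk (k : ℕ) : Fin m ⊕ Fin m → F := if h : k < m then Pi.single (Sum.inr ⟨k, h⟩) 1 else 0

lemma Sk_succ (k : ℕ) (hk : k < m) :
    Sk (F := F) m k = insert (fk m k) (insert (ek m k) (Sk m (k + 1))) := by
  ext v
  simp only [Sk, Set.mem_setOf_eq, Set.mem_insert_iff, ek, fk, dif_pos hk]
  constructor
  · rintro ⟨i, hi, hv⟩
    by_cases hik : i.val = k
    · have hi' : i = ⟨k, hk⟩ := Fin.ext hik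
      rw [hi'] at hv
      rcases hv with hv | hv
      · right; left; exact hv
      · left; exact hv
    · right; right
      exact ⟨i, by omega, hv⟩
  · rintro (hv | hv | ⟨i, hi, hv⟩)
    · exact ⟨⟨k, hk⟩, le_refl _, Or.inr hv⟩
    · exact ⟨⟨k, hk⟩, le_refl _, Or.inl hv⟩
    · exact ⟨i, by omega, hv⟩

lemma mem_perp_Sk (k : ℕ) (v : Fin m ⊕ Fin m → F) :
    v ∈ (qdata (F := F) m).perp (Sk m k) ↔ v ∈ Uk (F := F) m k := by
  rw [QData.mem_perp, mem_Uk]
  constructor
  · intro hv i hi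
    constructor
    · have := hv (Pi.single (Sum.inr i) 1) ⟨i, hi, Or.inr rfl⟩
      rwa [Bp_single_inr] at this
    · have := hv (Pi.single (Sum.inl i) 1) ⟨i, hi, Or.inl rfl⟩
      rwa [Bp_single_inl] at this
  · rintro hv s ⟨i, hi, rfl | rfl⟩
    · rw [Bp_single_inl]
      exact (hv i hi).2
    · rw [Bp_single_inr]
      exact (hv i hi).1

lemma perp_nondeg (k : ℕ) : ∀ v ∈ (qdata (F := F) m).perp (Sk m k), v ≠ 0 →
    ∃ z ∈ (qdata (F := F) m).perp (Sk m k), Bp m v z ≠ 0 := by
  intro v hv hv0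
  rw [mem_perp_Sk] at hv
  obtain ⟨j, hj⟩ : ∃ j, v j ≠ 0 := by
    by_contra hcon
    push_neg at hcon
    exact hv0 (funext hcon)
  rcases j with i | i
  · have hi : i.val < k := by
      by_contra hcon
      exact hj ((hv i (not_lt.mp hcon)).1)
    exact ⟨Pi.single (Sum.inr i) 1, (mem_perp_Sk m k _).mpr (single_inr_mem_Uk m k i hi), by
      rw [Bp_single_inr]; exact hj⟩
  · have hi : i.val < k := by
      by_contra hcon
      exact hj ((hv i (not_lt.mp hcon)).2)
    exact ⟨Pi.single (Sum.inl i) 1, (mem_perp_Sk m k _).mpr (single_inl_mem_Uk m k i hi), by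
      rw [Bp_single_inl]; exact hj⟩

lemma Q_UkEquiv (n : ℕ) (hn : n ≤ m) (x : ↥(Uk (F := F) m n)) :
    Cfsg.quadFormPlus n F (UkEquiv m n hn x) = Cfsg.quadFormPlus m F x.1 := by
  obtain ⟨G, hG⟩ : ∃ G : ℕ → F, G = fun i =>
      if h : i < m then x.1 (Sum.inl ⟨i, h⟩) * x.1 (Sum.inr ⟨i, h⟩) else 0 := ⟨_, rfl⟩
  have h1 : Cfsg.quadFormPlus m F x.1 = ∑ i : Fin m, G i.val := by
    unfold Cfsg.quadFormPlus
    apply Finset.sum_congr rfl
    intro i _
    rw [hG]
    simp only [dif_pos i.2]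
  have h2 : Cfsg.quadFormPlus n F (UkEquiv m n hn x) = ∑ i : Fin n, G i.val := by
    unfold Cfsg.quadFormPlus
    apply Finset.sum_congr rfl
    intro i _
    rw [hG]
    have him : i.val < m := lt_of_lt_of_le i.2 hn
    simp only [dif_pos him]
    rfl
  rw [h1, h2, Fin.sum_univ_eq_sum_range G m, Fin.sum_univ_eq_sum_range G n]
  apply Finset.sum_subset (Finset.range_subset_range.mpr hn)
  intro i hi hni
  rw [Finset.mem_range] at hi hni
  rw [hG]
  simp only [dif_pos hi]
  rw [(x.2 ⟨i, hi⟩ (not_lt.mp hni)).1, zero_mul]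

/-- singular nonzero vectors of `Uk n` -/
def singEquiv (n : ℕ) (hn : n ≤ m) :
    {a : Fin m ⊕ Fin m → F | a ∈ (qdata (F := F) m).perp (Sk m n) ∧
      Cfsg.quadFormPlus m F a = 0 ∧ a ≠ 0} ≃
    {w : Fin n ⊕ Fin n → F // Cfsg.quadFormPlus n F w = 0 ∧ w ≠ 0} where
  toFun a := ⟨UkEquiv m n hn ⟨a.1, (mem_perp_Sk m n _).mp a.2.1⟩, by
    rw [Q_UkEquiv]
    exact a.2.2.1, by
    intro h0
    apply a.2.2.2
    have h1 : (⟨a.1, (mem_perp_Sk m n _).mp a.2.1⟩ : ↥(Uk (F := F) m n)) = 0 := by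
      apply (UkEquiv m n hn).injective
      rw [h0]
      rfl
    exact congrArg Subtype.val h1⟩
  invFun w := ⟨((UkEquiv m n hn).symm w.1).1,
    (mem_perp_Sk m n _).mpr ((UkEquiv m n hn).symm w.1).2, by
    rw [← Q_UkEquiv m n hn, Equiv.apply_symm_apply]
    exact w.2.1, by
    intro h0
    apply w.2.2
    have h1 : (UkEquiv m n hn).symm w.1 = 0 := Subtype.ext h0
    rw [Equiv.symm_apply_eq] at h1
    rw [h1]
    rfl⟩
  left_inv a := by
    apply Subtype.ext
    simp
  right_inv w := by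
    apply Subtype.ext
    simp

lemma card_sing [Fintype F] (k : ℕ) (hk : k < m) :
    Nat.card {a : Fin m ⊕ Fin m → F | a ∈ (qdata (F := F) m).perp (Sk m (k + 1)) ∧
      Cfsg.quadFormPlus m F a = 0 ∧ a ≠ 0} =
      (Fintype.card F ^ (k + 1) - 1) * (Fintype.card F ^ k + 1) := by
  rw [Nat.card_congr (singEquiv m (k + 1) hk)]
  have h1 := card_ne_subtype (fun w : Fin (k + 1) ⊕ Fin (k + 1) → F =>
    Cfsg.quadFormPlus (k + 1) F w = 0) 0 (by
      unfold Cfsg.quadFormPlus
      simp)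
  have h2 := Cfsg.Agent.S0289.result (F := F) rfl (k + 1) (by omega)
  rw [h2] at h1
  have hq : 0 < Fintype.card F := Fintype.card_pos
  obtain ⟨A, hA⟩ : ∃ A, A = Fintype.card F ^ k := ⟨_, rfl⟩
  have hA0 : 0 < A := by rw [hA]; exact pow_pos hq k
  have e1 : Fintype.card F ^ (2 * (k + 1) - 1) = Fintype.card F * A * A := by
    rw [hA, show 2 * (k + 1) - 1 = 1 + k + k by omega, pow_add, pow_add, pow_one]
  have e2 : Fintype.card F ^ (k + 1) = Fintype.card F * A := by
    rw [hA, pow_succ, mul_comm]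
  have e3 : Fintype.card F ^ (k + 1 - 1) = A := by
    rw [hA, Nat.add_sub_cancel]
  rw [e1, e2, e3] at h1
  rw [e2, ← hA]
  obtain ⟨c, hc⟩ : ∃ c, Fintype.card F * A = c + 1 :=
    ⟨Fintype.card F * A - 1, by have := Nat.mul_pos hq hA0; omega⟩
  rw [hc] at h1 ⊢
  have e4 : (c + 1) * A + (c + 1) - A = c * (A + 1) + 1 := by
    have : (c + 1) * A + (c + 1) = c * (A + 1) + 1 + A := by ring
    omega
  rw [e4] at h1
  rw [Nat.add_sub_cancel]
  omega

lemma card_perp [Fintype F] (k : ℕ) (hk : k ≤ m) :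
    Nat.card ((qdata (F := F) m).perp (Sk m k)) = Fintype.card F ^ (2 * k) := by
  rw [Nat.card_congr (Equiv.subtypeEquivRight (mem_perp_Sk (F := F) m k)), card_Uk m k hk]

lemma fixG_Sk_zero : fixG (Cfsg.quadFormPlus m F) (Sk m 0) = ⊥ := by
  rw [eq_bot_iff]
  intro A hA
  rw [Subgroup.mem_bot]
  apply Units.ext
  ext r j
  rcases j with i | i
  · have := congrFun (hA.2 (Pi.single (Sum.inl i) 1) ⟨i, Nat.zero_le _, Or.inl rfl⟩) r
    rw [Matrix.mulVec_single_one] at this
    rw [Units.val_one, Matrix.one_apply]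
    simpa [Pi.single_apply] using this
  · have := congrFun (hA.2 (Pi.single (Sum.inr i) 1) ⟨i, Nat.zero_le _, Or.inr rfl⟩) r
    rw [Matrix.mulVec_single_one] at this
    rw [Units.val_one, Matrix.one_apply]
    simpa [Pi.single_apply] using this

lemma Sk_top : Sk (F := F) m m = ∅ := by
  ext v
  simp only [Sk, Set.mem_setOf_eq, Set.mem_empty_iff_false, iff_false]
  rintro ⟨i, hi, _⟩
  have := i.2
  omega

theorem card_plus [Fintype F] :
    Nat.card (Cfsg.isometryGroup F (Cfsg.quadFormPlus m F)) =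
      ∏ k ∈ Finset.range m, (Fintype.card F ^ (k + 1) - 1) * (Fintype.card F ^ k + 1) *
        Fintype.card F ^ (2 * k) := by
  have h := qdata (F := F) m
  have hch := h.chain (hns m) m (Sk m) (ek m) (fk m) (fun k hk => Sk_succ m k hk)
    (fun k hk => perp_nondeg m (k + 1))
    (fun k hk => by
      rw [ek, dif_pos hk]
      exact (mem_perp_Sk m (k + 1) _).mpr (single_inl_mem_Uk m (k + 1) ⟨k, hk⟩ (Nat.lt_succ_self k)))
    (fun k hk => by
      rw [fk, dif_pos hk]
      exact (mem_perp_Sk m (k + 1) _).mpr (single_inr_mem_Uk m (k + 1) ⟨k, hk⟩ (Nat.lt_succ_self k)))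
    (fun k hk => by rw [ek, dif_pos hk]; exact Q_single_inl m _)
    (fun k hk => by rw [fk, dif_pos hk]; exact Q_single_inr m _)
    (fun k hk => by
      rw [ek, fk, dif_pos hk, dif_pos hk, Bp_single_inr]
      simp)
    (fun k => (Fintype.card F ^ (k + 1) - 1) * (Fintype.card F ^ k + 1))
    (fun k => Fintype.card F ^ (2 * k))
    (fun k hk => card_sing m k hk) (fun k hk => card_perp m k (le_of_lt hk))
  rw [Sk_top, fixG_empty, fixG_Sk_zero, Subgroup.card_bot, mul_one] at hch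
  exact hch

end Cfsg.Agent.Helper7.OrthPlus
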