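import Mathlib
import Cfsg.Prelude.Def_Classical
import Cfsg.Agent.Helper7.OrthChain
import Cfsg.Agent.Helper7.OrthPlus

set_option autoImplicit false

namespace Cfsg.Agent.Helper7.OrthCore

open Matrix Cfsg.Agent.Helper7.OrthChain Cfsg.Agent.Helper7.SympGen Cfsg.Agent.Helper7.SympCard
open Cfsg.Agent.Helper7

variable {F : Type*} [Field F]

/-- orthogonal sum of quadratic data -/
lemma qdata_sum {ι1 ι2 : Type} [Fintype ι1] [DecidableEq ι1] [Fintype ι2] [DecidableEq ι2]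
    {Q1 : (ι1 → F) → F} {B1 : (ι1 → F) → (ι1 → F) → F}
    {Q2 : (ι2 → F) → F} {B2 : (ι2 → F) → (ι2 → F) → F}
    (h1 : QData Q1 B1) (h2 : QData Q2 B2) :
    QData (fun v : ι1 ⊕ ι2 → F => Q1 (v ∘ Sum.inl) + Q2 (v ∘ Sum.inr))
      (fun u v => B1 (u ∘ Sum.inl) (v ∘ Sum.inl) + B2 (u ∘ Sum.inr) (v ∘ Sum.inr)) where
  polar u v := by
    show Q1 ((u + v) ∘ Sum.inl) + Q2 ((u + v) ∘ Sum.inr) = _
    have e1 : (u + v) ∘ Sum.inl = u ∘ Sum.inl + v ∘ (Sum.inl : ι1 → ι1 ⊕ ι2) := rfl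
    have e2 : (u + v) ∘ Sum.inr = u ∘ Sum.inr + v ∘ (Sum.inr : ι2 → ι1 ⊕ ι2) := rfl
    rw [e1, e2, h1.polar, h2.polar]
    ring
  smul c v := by
    show Q1 ((c • v) ∘ Sum.inl) + Q2 ((c • v) ∘ Sum.inr) = _
    have e1 : (c • v) ∘ Sum.inl = c • (v ∘ (Sum.inl : ι1 → ι1 ⊕ ι2)) := rfl
    have e2 : (c • v) ∘ Sum.inr = c • (v ∘ (Sum.inr : ι2 → ι1 ⊕ ι2)) := rfl
    rw [e1, e2, h1.smul, h2.smul]
    ring
  add_left u u' v := by
    show B1 ((u + u') ∘ Sum.inl) _ + B2 ((u + u') ∘ Sum.inr) _ = _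
    have e1 : (u + u') ∘ Sum.inl = u ∘ Sum.inl + u' ∘ (Sum.inl : ι1 → ι1 ⊕ ι2) := rfl
    have e2 : (u + u') ∘ Sum.inr = u ∘ Sum.inr + u' ∘ (Sum.inr : ι2 → ι1 ⊕ ι2) := rfl
    rw [e1, e2, h1.add_left, h2.add_left]
    ring
  smul_left c u v := by
    show B1 ((c • u) ∘ Sum.inl) _ + B2 ((c • u) ∘ Sum.inr) _ = _
    have e1 : (c • u) ∘ Sum.inl = c • (u ∘ (Sum.inl : ι1 → ι1 ⊕ ι2)) := rfl
    have e2 : (c • u) ∘ Sum.inr = c • (u ∘ (Sum.inr : ι2 → ι1 ⊕ ι2)) := rfl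
    rw [e1, e2, h1.smul_left, h2.smul_left]
    ring
  symm u v := by
    show B1 _ _ + B2 _ _ = B1 _ _ + B2 _ _
    rw [h1.symm, h2.symm]

variable {κ : Type} [Fintype κ] [DecidableEq κ]
variable (Q0 : (κ → F) → F) (B0 : (κ → F) → (κ → F) → F) (m : ℕ)

/-- core form plus `m` hyperbolic planes -/
def Qc (v : κ ⊕ (Fin m ⊕ Fin m) → F) : F :=
  Q0 (v ∘ Sum.inl) + Cfsg.quadFormPlus m F (v ∘ Sum.inr)

def Bc (u v : κ ⊕ (Fin m ⊕ Fin m) → F) : F :=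
  B0 (u ∘ Sum.inl) (v ∘ Sum.inl) + OrthPlus.Bp m (u ∘ Sum.inr) (v ∘ Sum.inr)

variable {Q0 B0}

lemma qdata (h0 : QData Q0 B0) : QData (Qc Q0 m) (Bc B0 m) :=
  qdata_sum h0 (OrthPlus.qdata m)

omit [Fintype κ] in
lemma single_inr_comp_inr (j : Fin m ⊕ Fin m) :
    (Pi.single (Sum.inr j) (1 : F) : κ ⊕ (Fin m ⊕ Fin m) → F) ∘ Sum.inr = Pi.single j 1 := by
  funext x
  simp [Pi.single_apply]

omit [Fintype κ] in
lemma single_inr_comp_inl (j : Fin m ⊕ Fin m) :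
    (Pi.single (Sum.inr j) (1 : F) : κ ⊕ (Fin m ⊕ Fin m) → F) ∘ Sum.inl = 0 := by
  funext x
  simp [Pi.single_apply]

lemma Bc_single_inl (h0 : QData Q0 B0) (v : κ ⊕ (Fin m ⊕ Fin m) → F) (i : Fin m) :
    Bc B0 m v (Pi.single (Sum.inr (Sum.inl i)) 1) = v (Sum.inr (Sum.inr i)) := by
  unfold Bc
  rw [single_inr_comp_inr, single_inr_comp_inl, h0.B_zero_right, OrthPlus.Bp_single_inl, zero_add]
  rfl

lemma Bc_single_inr (h0 : QData Q0 B0) (v : κ ⊕ (Fin m ⊕ Fin m) → F) (i : Fin m) :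
    Bc B0 m v (Pi.single (Sum.inr (Sum.inr i)) 1) = v (Sum.inr (Sum.inl i)) := by
  unfold Bc
  rw [single_inr_comp_inr, single_inr_comp_inl, h0.B_zero_right, OrthPlus.Bp_single_inr, zero_add]
  rfl

lemma Qc_single_inl (h0 : QData Q0 B0) (i : Fin m) :
    Qc Q0 m (Pi.single (Sum.inr (Sum.inl i)) 1) = 0 := by
  unfold Qc
  rw [single_inr_comp_inr, single_inr_comp_inl, h0.Q_zero, OrthPlus.Q_single_inl, zero_add]

lemma Qc_single_inr (h0 : QData Q0 B0) (i : Fin m) :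
    Qc Q0 m (Pi.single (Sum.inr (Sum.inr i)) 1) = 0 := by
  unfold Qc
  rw [single_inr_comp_inr, single_inr_comp_inl, h0.Q_zero, OrthPlus.Q_single_inr, zero_add]

/-- extension of a core vector by zero -/
lemma Bc_elim_zero (v : κ ⊕ (Fin m ⊕ Fin m) → F) (z : κ → F) :
    Bc B0 m v (Sum.elim z 0) = B0 (v ∘ Sum.inl) z := by
  unfold Bc
  have e1 : (Sum.elim z (0 : Fin m ⊕ Fin m → F)) ∘ Sum.inl = z := rfl
  have e2 : (Sum.elim z (0 : Fin m ⊕ Fin m → F)) ∘ Sum.inr = 0 := rfl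
  rw [e1, e2, (OrthPlus.qdata m).B_zero_right, add_zero]

lemma hns (h0 : QData Q0 B0) (hnd0 : ∀ w : κ → F, w ≠ 0 → ∃ z, B0 w z ≠ 0) :
    ∀ v : κ ⊕ (Fin m ⊕ Fin m) → F, (∀ u, Bc B0 m u v = 0) → Qc Q0 m v = 0 → v = 0 := by
  intro v hv _
  have h := qdata (F := F) m h0
  have hv' : ∀ u, Bc B0 m v u = 0 := fun u => by rw [h.symm]; exact hv u
  have h1 : v ∘ Sum.inl = 0 := by
    by_contra hne
    obtain ⟨z, hz⟩ := hnd0 _ hne
    apply hz
    rw [← Bc_elim_zero (B0 := B0) m v z]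
    exact hv' _
  funext j
  rcases j with z | i | i
  · exact congrFun h1 z
  · have := hv' (Pi.single (Sum.inr (Sum.inr i)) 1)
    rw [Bc_single_inr m h0] at this
    exact this
  · have := hv' (Pi.single (Sum.inr (Sum.inl i)) 1)
    rw [Bc_single_inl m h0] at this
    exact this

variable (κ) in
/-- the basis vectors of the hyperbolic pairs of index at least `k` -/
def Sk (k : ℕ) : Set (κ ⊕ (Fin m ⊕ Fin m) → F) :=
  {v | ∃ i : Fin m, k ≤ i.val ∧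
    (v = Pi.single (Sum.inr (Sum.inl i)) 1 ∨ v = Pi.single (Sum.inr (Sum.inr i)) 1)}

variable (κ) in
def ek (k : ℕ) : κ ⊕ (Fin m ⊕ Fin m) → F :=
  if h : k < m then Pi.single (Sum.inr (Sum.inl ⟨k, h⟩)) 1 else 0

variable (κ) in
def fk (k : ℕ) : κ ⊕ (Fin m ⊕ Fin m) → F :=
  if h : k < m then Pi.single (Sum.inr (Sum.inr ⟨k, h⟩)) 1 else 0

omit [Fintype κ] in
lemma Sk_succ (k : ℕ) (hk : k < m) :
    Sk (F := F) κ m k = insert (fk κ m k) (insert (ek κ m k) (Sk κ m (k + 1))) := by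
  ext v
  simp only [Sk, Set.mem_setOf_eq, Set.mem_insert_iff, ek, fk, dif_pos hk]
  constructor
  · rintro ⟨i, hi, hv⟩
    by_cases hik : i.val = k
    · have hi' : i = ⟨k, hk⟩ := Fin.ext hik
      rw [hi'] at hv
      rcases hv with hv | hv
      · right; left; exact hv
      · left; exact hv
    · right; right
      exact ⟨i, by omega, hv⟩
  · rintro (hv | hv | ⟨i, hi, hv⟩)
    · exact ⟨⟨k, hk⟩, le_refl _, Or.inr hv⟩
    · exact ⟨⟨k, hk⟩, le_refl _, Or.inl hv⟩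
    · exact ⟨i, by omega, hv⟩

lemma mem_perp_Sk (h0 : QData Q0 B0) (k : ℕ) (v : κ ⊕ (Fin m ⊕ Fin m) → F) :
    v ∈ (qdata (F := F) m h0).perp (Sk κ m k) ↔ v ∘ Sum.inr ∈ Uk (F := F) m k := by
  rw [QData.mem_perp, mem_Uk]
  constructor
  · intro hv i hi
    constructor
    · have := hv (Pi.single (Sum.inr (Sum.inr i)) 1) ⟨i, hi, Or.inr rfl⟩
      rwa [Bc_single_inr m h0] at this
    · have := hv (Pi.single (Sum.inr (Sum.inl i)) 1) ⟨i, hi, Or.inl rfl⟩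
      rwa [Bc_single_inl m h0] at this
  · rintro hv s ⟨i, hi, rfl | rfl⟩
    · rw [Bc_single_inl m h0]
      exact (hv i hi).2
    · rw [Bc_single_inr m h0]
      exact (hv i hi).1

lemma perp_nondeg (h0 : QData Q0 B0) (hnd0 : ∀ w : κ → F, w ≠ 0 → ∃ z, B0 w z ≠ 0) (k : ℕ) :
    ∀ v ∈ (qdata (F := F) m h0).perp (Sk κ m k), v ≠ 0 →
    ∃ z ∈ (qdata (F := F) m h0).perp (Sk κ m k), Bc B0 m v z ≠ 0 := by
  intro v hv hv0
  rw [mem_perp_Sk m h0] at hv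
  by_cases hr : ∃ j, v (Sum.inr j) ≠ 0
  · obtain ⟨j, hj⟩ := hr
    rcases j with i | i
    · have hi : i.val < k := by
        by_contra hcon
        exact hj ((hv i (not_lt.mp hcon)).1)
      refine ⟨Pi.single (Sum.inr (Sum.inr i)) 1, ?_, ?_⟩
      · rw [mem_perp_Sk m h0, single_inr_comp_inr]
        exact single_inr_mem_Uk m k i hi
      · rw [Bc_single_inr m h0]
        exact hj
    · have hi : i.val < k := by
        by_contra hcon
        exact hj ((hv i (not_lt.mp hcon)).2)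
      refine ⟨Pi.single (Sum.inr (Sum.inl i)) 1, ?_, ?_⟩
      · rw [mem_perp_Sk m h0, single_inr_comp_inr]
        exact single_inl_mem_Uk m k i hi
      · rw [Bc_single_inl m h0]
        exact hj
  · push_neg at hr
    have hl : v ∘ Sum.inl ≠ 0 := by
      intro hl
      apply hv0
      funext j
      rcases j with z | j
      · exact congrFun hl z
      · exact hr j
    obtain ⟨z, hz⟩ := hnd0 _ hl
    refine ⟨Sum.elim z 0, ?_, ?_⟩
    · rw [mem_perp_Sk m h0]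
      exact (Uk (F := F) m k).zero_mem
    · rw [Bc_elim_zero]
      exact hz

/-- the vectors supported on the core and the first `n` pairs -/
def coreEquiv (n : ℕ) (hn : n ≤ m) :
    {v : κ ⊕ (Fin m ⊕ Fin m) → F // v ∘ Sum.inr ∈ Uk (F := F) m n} ≃
      (κ ⊕ (Fin n ⊕ Fin n) → F) where
  toFun v := Sum.elim (v.1 ∘ Sum.inl) (UkEquiv m n hn ⟨v.1 ∘ Sum.inr, v.2⟩)
  invFun w := ⟨Sum.elim (w ∘ Sum.inl) ((UkEquiv m n hn).symm (w ∘ Sum.inr)).1,
    ((UkEquiv m n hn).symm (w ∘ Sum.inr)).2⟩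
  left_inv v := by
    apply Subtype.ext
    funext j
    rcases j with z | j
    · rfl
    · show ((UkEquiv m n hn).symm (UkEquiv m n hn ⟨v.1 ∘ Sum.inr, v.2⟩)).1 j = v.1 (Sum.inr j)
      rw [Equiv.symm_apply_apply]
      rfl
  right_inv w := by
    funext j
    rcases j with z | j
    · rfl
    · exact congrFun (Equiv.apply_symm_apply (UkEquiv m n hn) (w ∘ Sum.inr)) j

omit [Fintype κ] [DecidableEq κ] in
lemma Qc_coreEquiv (n : ℕ) (hn : n ≤ m)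
    (v : {v : κ ⊕ (Fin m ⊕ Fin m) → F // v ∘ Sum.inr ∈ Uk (F := F) m n}) :
    Qc Q0 n (coreEquiv m n hn v) = Qc Q0 m v.1 := by
  show Q0 (v.1 ∘ Sum.inl) + Cfsg.quadFormPlus n F (UkEquiv m n hn ⟨v.1 ∘ Sum.inr, v.2⟩) = _
  rw [OrthPlus.Q_UkEquiv]
  rfl

omit [Fintype κ] [DecidableEq κ] in
lemma coreEquiv_zero (n : ℕ) (hn : n ≤ m) (h : (0 : κ ⊕ (Fin m ⊕ Fin m) → F) ∘ Sum.inr ∈ Uk (F := F) m n) :
    coreEquiv (κ := κ) m n hn ⟨0, h⟩ = 0 := by
  funext j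
  rcases j with z | j | j <;> rfl

lemma card_sing [Finite F] (h0 : QData Q0 B0) (n : ℕ) (hn : n ≤ m) :
    Nat.card {a : κ ⊕ (Fin m ⊕ Fin m) → F | a ∈ (qdata (F := F) m h0).perp (Sk κ m n) ∧
      Qc Q0 m a = 0 ∧ a ≠ 0} + 1 =
      Nat.card {w : κ ⊕ (Fin n ⊕ Fin n) → F // Qc Q0 n w = 0} := by
  have hz : Qc Q0 n (0 : κ ⊕ (Fin n ⊕ Fin n) → F) = 0 := by
    unfold Qc
    have e1 : (0 : κ ⊕ (Fin n ⊕ Fin n) → F) ∘ Sum.inl = 0 := rfl
    have e2 : (0 : κ ⊕ (Fin n ⊕ Fin n) → F) ∘ Sum.inr = 0 := rfl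
    rw [e1, e2, h0.Q_zero, (OrthPlus.qdata n).Q_zero, add_zero]
  rw [← OrthPlus.card_ne_subtype (fun w : κ ⊕ (Fin n ⊕ Fin n) → F => Qc Q0 n w = 0) 0 hz]
  congr 1
  have e1 : {a : κ ⊕ (Fin m ⊕ Fin m) → F | a ∈ (qdata (F := F) m h0).perp (Sk κ m n) ∧
      Qc Q0 m a = 0 ∧ a ≠ 0} ≃ {v : κ ⊕ (Fin m ⊕ Fin m) → F //
        v ∘ Sum.inr ∈ Uk (F := F) m n ∧ (Qc Q0 m v = 0 ∧ v ≠ 0)} :=
    Equiv.subtypeEquivRight (fun a => by
      show (a ∈ (qdata (F := F) m h0).perp (Sk κ m n) ∧ _) ↔ _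
      rw [mem_perp_Sk m h0])
  have e2 := (Equiv.subtypeSubtypeEquivSubtypeInter
    (fun v : κ ⊕ (Fin m ⊕ Fin m) → F => v ∘ Sum.inr ∈ Uk (F := F) m n)
    (fun v => Qc Q0 m v = 0 ∧ v ≠ 0)).symm
  have e3 : {x : {v : κ ⊕ (Fin m ⊕ Fin m) → F // v ∘ Sum.inr ∈ Uk (F := F) m n} //
      Qc Q0 m x.1 = 0 ∧ x.1 ≠ 0} ≃ {w : κ ⊕ (Fin n ⊕ Fin n) → F // Qc Q0 n w = 0 ∧ w ≠ 0} :=
    Equiv.subtypeEquiv (coreEquiv m n hn) (fun x => by
      rw [Qc_coreEquiv]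
      constructor
      · rintro ⟨hq, hne⟩
        refine ⟨hq, fun h0' => hne ?_⟩
        have h1 : x = ⟨0, (Uk (F := F) m n).zero_mem⟩ := by
          apply (coreEquiv m n hn).injective
          rw [h0', coreEquiv_zero]
        exact congrArg Subtype.val h1
      · rintro ⟨hq, hne⟩
        refine ⟨hq, fun h0' => hne ?_⟩
        have h1 : x = ⟨0, (Uk (F := F) m n).zero_mem⟩ := Subtype.ext h0'
        rw [h1, coreEquiv_zero])
  exact Nat.card_congr (e1.trans (e2.trans e3))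

lemma card_perp [Fintype F] (h0 : QData Q0 B0) (k : ℕ) (hk : k ≤ m) :
    Nat.card ((qdata (F := F) m h0).perp (Sk κ m k)) =
      Fintype.card F ^ (Fintype.card κ + 2 * k) := by
  classical
  rw [Nat.card_congr (Equiv.subtypeEquivRight (mem_perp_Sk (F := F) m h0 k)),
    Nat.card_congr (coreEquiv m k hk), Nat.card_eq_fintype_card, Fintype.card_fun,
    Fintype.card_sum, Fintype.card_sum, Fintype.card_fin, two_mul]

omit [Fintype κ] in
lemma Sk_top : Sk (F := F) κ m m = ∅ := by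
  ext v
  simp only [Sk, Set.mem_setOf_eq, Set.mem_empty_iff_false, iff_false]
  rintro ⟨i, hi, _⟩
  have := i.2
  omega

/-- the order of the isometry group in terms of the stabiliser of all hyperbolic pairs -/
theorem card_core [Fintype F] (h0 : QData Q0 B0) (hnd0 : ∀ w : κ → F, w ≠ 0 → ∃ z, B0 w z ≠ 0) :
    Nat.card (Cfsg.isometryGroup F (Qc Q0 m)) =
      (∏ k ∈ Finset.range m,
        (Nat.card {w : κ ⊕ (Fin (k + 1) ⊕ Fin (k + 1)) → F // Qc Q0 (k + 1) w = 0} - 1) *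
          Fintype.card F ^ (Fintype.card κ + 2 * k)) *
        Nat.card (fixG (Qc Q0 m) (Sk κ m 0)) := by
  have h := qdata (F := F) m h0
  have hch := h.chain (hns m h0 hnd0) m (Sk κ m) (ek κ m) (fk κ m) (fun k hk => Sk_succ m k hk)
    (fun k hk => perp_nondeg m h0 hnd0 (k + 1))
    (fun k hk => by
      rw [ek, dif_pos hk, mem_perp_Sk m h0, single_inr_comp_inr]
      exact single_inl_mem_Uk m (k + 1) ⟨k, hk⟩ (Nat.lt_succ_self k))
    (fun k hk => by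
      rw [fk, dif_pos hk, mem_perp_Sk m h0, single_inr_comp_inr]
      exact single_inr_mem_Uk m (k + 1) ⟨k, hk⟩ (Nat.lt_succ_self k))
    (fun k hk => by rw [ek, dif_pos hk]; exact Qc_single_inl m h0 _)
    (fun k hk => by rw [fk, dif_pos hk]; exact Qc_single_inr m h0 _)
    (fun k hk => by
      rw [ek, fk, dif_pos hk, dif_pos hk, Bc_single_inr m h0]
      simp)
    (fun k => Nat.card {w : κ ⊕ (Fin (k + 1) ⊕ Fin (k + 1)) → F // Qc Q0 (k + 1) w = 0} - 1)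
    (fun k => Fintype.card F ^ (Fintype.card κ + 2 * k))
    (fun k hk => by
      have := card_sing (F := F) m h0 (k + 1) hk
      omega)
    (fun k hk => card_perp m h0 k (le_of_lt hk))
  rw [Sk_top, fixG_empty] at hch
  exact hch

end Cfsg.Agent.Helper7.OrthCore
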