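import Mathlib

set_option autoImplicit false

namespace Cfsg.Agent.Helper7

universe u

/-- A group of order `p ^ r` is generated by `r` elements. -/
theorem exists_generators_of_card_eq_prime_pow (p : ℕ) [Fact p.Prime] :
    ∀ (r : ℕ) (Q : Type u) [Group Q] [Finite Q], Nat.card Q = p ^ r →
      ∃ x : Fin r → Q, Subgroup.closure (Set.range x) = ⊤ := by
  have hp : p.Prime := Fact.out
  intro r
  induction r with
  | zero =>
    intro Q _ _ hQ
    rw [pow_zero, Nat.card_eq_one_iff_unique] at hQ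
    haveI := hQ.1
    exact ⟨Fin.elim0, Subsingleton.elim _ _⟩
  | succ r ih =>
    intro Q _ _ hQ
    obtain ⟨M, hM⟩ := Sylow.exists_subgroup_card_pow_prime (G := Q) p
      (show p ^ r ∣ Nat.card Q by rw [hQ]; exact pow_dvd_pow p (Nat.le_succ r))
    obtain ⟨x', hx'⟩ := ih M hM
    have hMtop : M ≠ ⊤ := by
      intro h
      rw [h, Subgroup.card_top, hQ] at hM
      have h2 : p ^ r < p ^ (r + 1) := Nat.pow_lt_pow_right hp.one_lt (Nat.lt_succ_self r)
      omega
    obtain ⟨y, hy⟩ : ∃ y : Q, y ∉ M := by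
      by_contra hcon
      push Not at hcon
      exact hMtop (eq_top_iff.2 fun g _ => hcon g)
    refine ⟨Fin.snoc (fun i => (x' i : Q)) y, ?_⟩
    have hMle : M ≤ Subgroup.closure (Set.range (Fin.snoc (fun i => (x' i : Q)) y : Fin (r + 1) → Q)) := by
      have h1 : M = (Subgroup.closure (Set.range x')).map M.subtype := by
        rw [hx', ← MonoidHom.range_eq_map, Subgroup.range_subtype]
      have h2 : (Subgroup.closure (Set.range x')).map M.subtype ≤
          Subgroup.closure (Set.range (Fin.snoc (fun i => (x' i : Q)) y : Fin (r + 1) → Q)) := by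
        rw [MonoidHom.map_closure, Subgroup.closure_le]
        rintro _ ⟨_, ⟨i, rfl⟩, rfl⟩
        apply Subgroup.subset_closure
        refine ⟨Fin.castSucc i, ?_⟩
        rw [Fin.snoc_castSucc]
        rfl
      intro z hz
      rw [h1] at hz
      exact h2 hz
    have hyK : y ∈ Subgroup.closure (Set.range (Fin.snoc (fun i => (x' i : Q)) y : Fin (r + 1) → Q)) := by
      apply Subgroup.subset_closure
      refine ⟨Fin.last r, ?_⟩
      rw [Fin.snoc_last]
    obtain ⟨K, hK⟩ : ∃ K : Subgroup Q, K = Subgroup.closure (Set.range (Fin.snoc (fun i => (x' i : Q)) y : Fin (r + 1) → Q)) := ⟨_, rfl⟩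
    rw [← hK] at hMle hyK ⊢
    have h1 : Nat.card K ∣ p ^ (r + 1) := hQ ▸ Subgroup.card_subgroup_dvd_card K
    obtain ⟨j, hj, hKj⟩ := (Nat.dvd_prime_pow hp).1 h1
    have h2 : p ^ r ∣ p ^ j := by
      rw [← hM, ← hKj]
      exact Subgroup.card_dvd_of_le hMle
    have h3 : r ≤ j := (Nat.pow_dvd_pow_iff_le_right hp.one_lt).1 h2
    have h4 : j ≠ r := by
      intro hjr
      rw [hjr, ← hM] at hKj
      have h5 : M = K := Subgroup.eq_of_le_of_card_ge hMle (le_of_eq hKj)
      exact hy (h5 ▸ hyK)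
    have h5 : j = r + 1 := by omega
    rw [h5, ← hQ] at hKj
    exact (Subgroup.card_eq_iff_eq_top K).1 hKj

end Cfsg.Agent.Helper7
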