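import Mathlib

set_option autoImplicit false

namespace Cfsg.Agent.Helper7

universe u

open scoped Pointwise

/-- Restriction of an endomorphism to an invariant subgroup. -/
noncomputable def restrictEnd {A : Type u} [CommGroup A] (B : Subgroup A) (I : A →* A)
    (h : ∀ v ∈ B, I v ∈ B) : ↥B →* ↥B :=
  (I.comp B.subtype).codRestrict B (fun v => h v v.2)

theorem restrictEnd_coe {A : Type u} [CommGroup A] (B : Subgroup A) (I : A →* A)
    (h : ∀ v ∈ B, I v ∈ B) (v : ↥B) : ((restrictEnd B I h v : ↥B) : A) = I (v : A) := rfl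

/-- Elementary abelian case: an odd elementary abelian group with a quaternion action
(`I² = J² = -1`, `IJ = -JI`) has square order. -/
theorem quat_elem_square {A : Type u} [CommGroup A] [Finite A] (I J : A →* A)
    (hI : ∀ v, I (I v) = v⁻¹) (hJ : ∀ v, J (J v) = v⁻¹) (hIJ : ∀ v, I (J v) = (J (I v))⁻¹)
    (r : ℕ) [Fact r.Prime] (hr2 : r ≠ 2) (hexp : ∀ v : A, v ^ r = 1) :
    IsSquare (Nat.card A) := by
  have hr : r.Prime := Fact.out
  obtain ⟨a, b, -, -, hab'⟩ := Nat.sq_add_sq_modEq r (r - 1)
  have hab : r ∣ a ^ 2 + b ^ 2 + 1 := by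
    have h1 := Nat.ModEq.add_right 1 hab'
    rw [Nat.sub_add_cancel hr.one_le] at h1
    exact (Nat.modEq_zero_iff_dvd).1 (h1.trans (by simp [Nat.ModEq]))
  obtain ⟨k, hk⟩ : ∃ k, r = 2 * k + 1 := by
    rcases hr.eq_two_or_odd' with h | h
    · exact absurd h hr2
    · exact h
  have hJIJ : ∀ v, J (I (J v)) = I v := by
    intro v
    have h1 := hIJ (J v)
    rw [hJ, map_inv] at h1
    exact (inv_injective h1).symm
  have hIJI : ∀ v, I (J (I v)) = J v := by
    intro v
    have h1 := hIJ (I v)
    rw [hI, map_inv, inv_inv] at h1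
    exact h1
  have hodd1 : ∀ v : A, v = v⁻¹ → v = 1 := by
    intro v hv
    have h2 : v ^ 2 = 1 := by
      rw [pow_two]; nth_rewrite 1 [hv]; exact inv_mul_cancel v
    have h3 := hexp v
    rw [hk, pow_succ, pow_mul, h2, one_pow, one_mul] at h3
    exact h3
  set S : A → A := fun v => I v ^ a * J v ^ b with hS
  have hSmul : ∀ v w, S (v * w) = S v * S w := by
    intro v w
    simp only [hS, map_mul, mul_pow]
    exact mul_mul_mul_comm _ _ _ _
  have hSone : S 1 = 1 := by simp [hS]
  have hSinv : ∀ v, S v⁻¹ = (S v)⁻¹ := by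
    intro v
    simp only [hS, map_inv, inv_pow, mul_inv]
  have hSS : ∀ v, S (S v) = v := by
    intro v
    have h1 : S (S v) = (v ^ (a ^ 2 + b ^ 2))⁻¹ := by
      simp only [hS, map_mul, map_pow, hI, hJ, hIJ, mul_pow, inv_pow, ← pow_mul]
      rw [pow_add, mul_inv, pow_two, pow_two]
      have e : ∀ x y z w : A, x * y⁻¹ * (y * w) = x * w := by
        intro x y z w
        rw [mul_assoc, inv_mul_cancel_left]
      rw [mul_comm a b, e _ _ 1 _]
    obtain ⟨c, hc⟩ := hab
    have h2 : v ^ (a ^ 2 + b ^ 2) * v = 1 := by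
      rw [← pow_succ, hc, pow_mul, hexp, one_pow]
    rw [h1]
    exact inv_eq_of_mul_eq_one_right h2
  set T : A → A := fun v => I (J v) with hT
  have hTT : ∀ v, T (T v) = v⁻¹ := by
    intro v
    simp only [hT]
    rw [hJIJ, hI]
  have hTinj : Function.Injective T := by
    intro v w hvw
    have h1 : T (T v) = T (T w) := by rw [hvw]
    rw [hTT, hTT] at h1
    exact inv_injective h1
  have hST : ∀ v, S (T v) = (T (S v))⁻¹ := by
    intro v
    simp only [hS, hT, map_mul, map_pow, hI, hJIJ, hIJI, hJ, map_inv, inv_pow, mul_inv, inv_inv]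
  let Ap : Subgroup A :=
    { carrier := {v | S v = v}
      mul_mem' := by
        intro v w hv hw
        simp only [Set.mem_setOf_eq] at *
        rw [hSmul, hv, hw]
      one_mem' := hSone
      inv_mem' := by
        intro v hv
        simp only [Set.mem_setOf_eq] at *
        rw [hSinv, hv] }
  let Am : Subgroup A :=
    { carrier := {v | S v = v⁻¹}
      mul_mem' := by
        intro v w hv hw
        simp only [Set.mem_setOf_eq] at *
        rw [hSmul, hv, hw, mul_inv]
      one_mem' := by
        simp only [Set.mem_setOf_eq]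
        rw [hSone, inv_one]
      inv_mem' := by
        intro v hv
        simp only [Set.mem_setOf_eq] at *
        rw [hSinv, hv] }
  have hApm : ∀ v, v ∈ Ap ↔ S v = v := fun v => Iff.rfl
  have hAmm : ∀ v, v ∈ Am ↔ S v = v⁻¹ := fun v => Iff.rfl
  have hdisj : Disjoint Ap Am := by
    rw [Subgroup.disjoint_def]
    intro v hv hw
    rw [hApm] at hv
    rw [hAmm] at hw
    exact hodd1 v (hv.symm.trans hw)
  have huniv : ((Ap : Set A) * (Am : Set A)) = Set.univ := by
    rw [Set.eq_univ_iff_forall]
    intro v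
    refine Set.mem_mul.2 ⟨(v * S v) ^ (k + 1), ?_, (v * (S v)⁻¹) ^ (k + 1), ?_, ?_⟩
    · refine Subgroup.pow_mem Ap ?_ _
      show S (v * S v) = v * S v
      rw [hSmul, hSS, mul_comm]
    · refine Subgroup.pow_mem Am ?_ _
      show S (v * (S v)⁻¹) = (v * (S v)⁻¹)⁻¹
      rw [hSmul, hSinv, hSS, mul_inv, inv_inv, mul_comm]
    · rw [← mul_pow]
      have e : v * S v * (v * (S v)⁻¹) = v ^ 2 := by
        rw [pow_two, mul_mul_mul_comm, mul_inv_cancel, mul_one]
      rw [e, ← pow_mul]
      have e2 : 2 * (k + 1) = r + 1 := by omega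
      rw [e2, pow_succ, hexp, one_mul]
  have hcompl := Subgroup.isComplement'_of_disjoint_and_mul_eq_univ hdisj huniv
  have hcard := hcompl.card_mul_card
  have hle1 : Nat.card Ap ≤ Nat.card Am := by
    refine Nat.card_le_card_of_injective (fun v : Ap => (⟨T v.1, ?_⟩ : Am)) ?_
    · show S (T v.1) = (T v.1)⁻¹
      rw [hST, (hApm _).1 v.2]
    · intro v w hvw
      exact Subtype.ext (hTinj (congrArg Subtype.val hvw))
  have hle2 : Nat.card Am ≤ Nat.card Ap := by
    refine Nat.card_le_card_of_injective (fun v : Am => (⟨T v.1, ?_⟩ : Ap)) ?_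
    · show S (T v.1) = T v.1
      rw [hST, (hAmm _).1 v.2]
      have h1 : T (v.1)⁻¹ = (T v.1)⁻¹ := by
        simp only [hT, map_inv]
      rw [h1, inv_inv]
    · intro v w hvw
      exact Subtype.ext (hTinj (congrArg Subtype.val hvw))
  have heq : Nat.card Ap = Nat.card Am := le_antisymm hle1 hle2
  exact ⟨Nat.card Ap, by rw [← hcard, heq]⟩

/-- A finite abelian group of odd order with endomorphisms `I`, `J` such that `I² = J² = -1` and
`IJ = -JI` has square order. -/
theorem quat_square (n : ℕ) : ∀ (A : Type u) [CommGroup A] [Finite A] (I J : A →* A),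
    (∀ v, I (I v) = v⁻¹) → (∀ v, J (J v) = v⁻¹) → (∀ v, I (J v) = (J (I v))⁻¹) →
    Odd (Nat.card A) → Nat.card A ≤ n → IsSquare (Nat.card A) := by
  induction n with
  | zero =>
    intro A _ _ I J _ _ _ _ h
    exact absurd h (by have := Nat.card_pos (α := A); omega)
  | succ n ih =>
    intro A _ _ I J hI hJ hIJ hodd hcard
    by_cases h1 : Nat.card A = 1
    · rw [h1]; exact ⟨1, rfl⟩
    obtain ⟨r, hr, hrd⟩ := Nat.exists_prime_and_dvd h1
    haveI : Fact r.Prime := ⟨hr⟩
    have hr2 : r ≠ 2 := by
      rintro rfl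
      exact (Nat.not_even_iff_odd.2 hodd) (even_iff_two_dvd.2 hrd)
    by_cases hexp : ∀ v : A, v ^ r = 1
    · exact quat_elem_square I J hI hJ hIJ r hr2 hexp
    · let f : A →* A := powMonoidHom r
      have hf : ∀ v, f v = v ^ r := fun v => rfl
      have hcardmul : Nat.card f.ker * Nat.card f.range = Nat.card A := by
        rw [← Subgroup.index_ker]; exact Subgroup.card_mul_index _
      have hker1 : Nat.card f.ker ≠ 1 := by
        obtain ⟨g, hg⟩ := exists_prime_orderOf_dvd_card' r hrd
        intro h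
        have hbot : f.ker = ⊥ := Subgroup.card_eq_one.1 h
        have hgk : g ∈ f.ker := by
          rw [MonoidHom.mem_ker, hf, ← hg]; exact pow_orderOf_eq_one g
        rw [hbot, Subgroup.mem_bot] at hgk
        rw [hgk, orderOf_one] at hg
        exact hr.one_lt.ne hg
      have hrange1 : Nat.card f.range ≠ 1 := by
        intro h
        have hbot : f.range = ⊥ := Subgroup.card_eq_one.1 h
        apply hexp
        intro v
        have h2 : f v ∈ f.range := ⟨v, rfl⟩
        rw [hbot, Subgroup.mem_bot] at h2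
        exact h2
      have hkpos := Nat.card_pos (α := f.ker)
      have hrpos := Nat.card_pos (α := f.range)
      have hk2 : 2 ≤ Nat.card f.ker := by omega
      have hr2' : 2 ≤ Nat.card f.range := by omega
      have hklt : Nat.card f.ker ≤ n := by
        have h3 : Nat.card f.ker * 2 ≤ Nat.card f.ker * Nat.card f.range :=
          Nat.mul_le_mul_left _ hr2'
        omega
      have hrlt : Nat.card f.range ≤ n := by
        have h3 : 2 * Nat.card f.range ≤ Nat.card f.ker * Nat.card f.range :=
          Nat.mul_le_mul_right _ hk2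
        omega
      have hoddk : Odd (Nat.card f.ker) := Odd.of_dvd_nat hodd (Dvd.intro _ hcardmul)
      have hoddr : Odd (Nat.card f.range) := Odd.of_dvd_nat hodd (Dvd.intro_left _ hcardmul)
      have hker : ∀ (E : A →* A), ∀ v ∈ f.ker, E v ∈ f.ker := by
        intro E v hv
        rw [MonoidHom.mem_ker, hf] at hv ⊢
        rw [← map_pow, hv, map_one]
      have hrange : ∀ (E : A →* A), ∀ v ∈ f.range, E v ∈ f.range := by
        rintro E _ ⟨w, rfl⟩
        exact ⟨E w, by rw [hf, hf, map_pow]⟩
      have sq1 := ih f.ker (restrictEnd f.ker I (hker I)) (restrictEnd f.ker J (hker J))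
        (fun v => Subtype.ext (hI v)) (fun v => Subtype.ext (hJ v))
        (fun v => Subtype.ext (hIJ v)) hoddk hklt
      have sq2 := ih f.range (restrictEnd f.range I (hrange I)) (restrictEnd f.range J (hrange J))
        (fun v => Subtype.ext (hI v)) (fun v => Subtype.ext (hJ v))
        (fun v => Subtype.ext (hIJ v)) hoddr hrlt
      rw [← hcardmul]
      exact sq1.mul sq2

end Cfsg.Agent.Helper7
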