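import Mathlib
import Cfsg.Agent.Helper7.SylowLemmas
import Cfsg.Agent.Helper7.PiDecomp
import Cfsg.Agent.Helper3.CNFrob
import Cfsg.Agent.Helper4.PPrimeP

set_option autoImplicit false

/-!
Groups with an element `x` of prime order `p` such that `C_G(x) = ⟨x⟩`.
-/

namespace Cfsg.Agent.Helper7

section SelfCentP

variable {G : Type*} [Group G] [Finite G]

theorem scp_natCard_subtype_eq {α : Type*} [Fintype α] (Q : α → Prop) [DecidablePred Q] :
    Nat.card {x // Q x} = (Finset.univ.filter Q).card := by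
  rw [Nat.card_eq_fintype_card, Fintype.card_subtype]

theorem scp_centralizer_of_mem (p : ℕ) [Fact p.Prime] (x : G) (hx : orderOf x = p)
    (hC : Subgroup.centralizer ({x} : Set G) = Subgroup.zpowers x) (y : G)
    (hy : y ∈ Subgroup.zpowers x) (hy1 : y ≠ 1) :
    Subgroup.centralizer ({y} : Set G) = Subgroup.zpowers x := by
  have hp : p.Prime := Fact.out
  have hxy : x ∈ Subgroup.zpowers y :=
    Cfsg.Agent.Helper3.mem_zpowers_of_prime_order hp hx hy hy1
  apply le_antisymm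
  · intro c hc
    rw [Subgroup.mem_centralizer_singleton_iff] at hc
    rw [← hC, Subgroup.mem_centralizer_singleton_iff]
    obtain ⟨k, hk⟩ := Subgroup.mem_zpowers_iff.1 hxy
    rw [← hk]
    exact (Commute.zpow_right (show Commute c y from hc) k).eq
  · intro c hc
    obtain ⟨i, hi⟩ := Subgroup.mem_zpowers_iff.1 hc
    obtain ⟨j, hj⟩ := Subgroup.mem_zpowers_iff.1 hy
    rw [Subgroup.mem_centralizer_singleton_iff, ← hi, ← hj]
    exact ((Commute.refl x).zpow_zpow i j).eq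

/-- `⟨x⟩` is a Sylow `p`-subgroup. -/
theorem scp_sylow (p : ℕ) [Fact p.Prime] (x : G) (hx : orderOf x = p)
    (hC : Subgroup.centralizer ({x} : Set G) = Subgroup.zpowers x) :
    ∃ Q : Sylow p G, (Q : Subgroup G) = Subgroup.zpowers x := by
  have hp : p.Prime := Fact.out
  have hpg : IsPGroup p (Subgroup.zpowers x) :=
    IsPGroup.of_card (n := 1) (by rw [Nat.card_zpowers, hx, pow_one])
  obtain ⟨Q, hQ⟩ := hpg.exists_le_sylow
  refine ⟨Q, le_antisymm ?_ hQ⟩
  have hxQ : x ∈ (Q : Subgroup G) := hQ (Subgroup.mem_zpowers x)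
  haveI : Nontrivial (Q : Subgroup G) := by
    refine ⟨⟨⟨x, hxQ⟩, 1, ?_⟩⟩
    intro h
    have h1 : x = 1 := congrArg Subtype.val h
    rw [h1, orderOf_one] at hx
    exact hp.one_lt.ne hx
  haveI := Q.2.center_nontrivial
  obtain ⟨z, hz1⟩ := exists_ne (1 : Subgroup.center (Q : Subgroup G))
  have hzc : ∀ q : (Q : Subgroup G), q * (z : (Q : Subgroup G)) = (z : (Q : Subgroup G)) * q :=
    fun q => (Subgroup.mem_center_iff.1 z.2 q)
  have hz'1 : ((z : (Q : Subgroup G)) : G) ≠ 1 := by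
    intro h
    apply hz1
    apply Subtype.ext
    apply Subtype.ext
    exact h
  have hz'x : ((z : (Q : Subgroup G)) : G) ∈ Subgroup.zpowers x := by
    rw [← hC, Subgroup.mem_centralizer_singleton_iff]
    have h2 := congrArg Subtype.val (hzc ⟨x, hxQ⟩)
    exact h2.symm
  have hxz : x ∈ Subgroup.zpowers ((z : (Q : Subgroup G)) : G) :=
    Cfsg.Agent.Helper3.mem_zpowers_of_prime_order hp hx hz'x hz'1
  intro q hq
  rw [← hC, Subgroup.mem_centralizer_singleton_iff]
  obtain ⟨k, hk⟩ := Subgroup.mem_zpowers_iff.1 hxz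
  rw [← hk]
  have h3 : q * ((z : (Q : Subgroup G)) : G) = ((z : (Q : Subgroup G)) : G) * q :=
    congrArg Subtype.val (hzc ⟨q, hq⟩)
  exact (Commute.zpow_right (show Commute q ((z : (Q : Subgroup G)) : G) from h3) k).eq

/-- Every element of order `p` is conjugate into `⟨x⟩`. -/
theorem scp_conj (p : ℕ) [Fact p.Prime] (x : G) (hx : orderOf x = p)
    (hC : Subgroup.centralizer ({x} : Set G) = Subgroup.zpowers x) (z : G) (hz : orderOf z = p) :
    ∃ g : G, g⁻¹ * z * g ∈ Subgroup.zpowers x := by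
  obtain ⟨Q, hQ⟩ := scp_sylow p x hx hC
  obtain ⟨Q', hz'⟩ := exists_sylow_mem_of_orderOf_eq_prime_pow z 1 (by rw [hz, pow_one])
  obtain ⟨g, hg⟩ := MulAction.exists_smul_eq G Q Q'
  refine ⟨g, ?_⟩
  rw [← hQ]
  rw [← hg] at hz'
  exact (mem_smul_sylow_iff g z Q).1 hz'

theorem scp_conj_ne_one (g z : G) (hz : z ≠ 1) : g⁻¹ * z * g ≠ 1 := by
  intro h
  apply hz
  have h2 : z = g * (g⁻¹ * z * g) * g⁻¹ := by group
  rw [h2, h]; group

/-- Every element of order `p` is self-centralizing. -/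
theorem scp_centralizer (p : ℕ) [Fact p.Prime] (x : G) (hx : orderOf x = p)
    (hC : Subgroup.centralizer ({x} : Set G) = Subgroup.zpowers x) (z : G) (hz : orderOf z = p) :
    Subgroup.centralizer ({z} : Set G) = Subgroup.zpowers z := by
  have hp : p.Prime := Fact.out
  obtain ⟨g, hg⟩ := scp_conj p x hx hC z hz
  have hz1 : z ≠ 1 := by
    rintro rfl
    rw [orderOf_one] at hz
    exact hp.one_lt.ne hz
  have hy1 : g⁻¹ * z * g ≠ 1 := scp_conj_ne_one g z hz1
  have hCy := scp_centralizer_of_mem p x hx hC (g⁻¹ * z * g) hg hy1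
  have hxy : x ∈ Subgroup.zpowers (g⁻¹ * z * g) :=
    Cfsg.Agent.Helper3.mem_zpowers_of_prime_order hp hx hg hy1
  apply le_antisymm
  · intro c hc
    rw [Subgroup.mem_centralizer_singleton_iff] at hc
    have h1 : g⁻¹ * c * g ∈ Subgroup.centralizer ({g⁻¹ * z * g} : Set G) := by
      rw [Subgroup.mem_centralizer_singleton_iff]
      calc g⁻¹ * c * g * (g⁻¹ * z * g) = g⁻¹ * (c * z) * g := by group
        _ = g⁻¹ * (z * c) * g := by rw [hc]
        _ = g⁻¹ * z * g * (g⁻¹ * c * g) := by group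
    rw [hCy] at h1
    have h2 : g⁻¹ * c * g ∈ Subgroup.zpowers (g⁻¹ * z * g) := (Subgroup.zpowers_le.2 hxy) h1
    obtain ⟨k, hk⟩ := Subgroup.mem_zpowers_iff.1 h2
    have h3 : (g⁻¹ * z * g) ^ k = g⁻¹ * z ^ k * g := by
      have e : g⁻¹ * z * g = g⁻¹ * z * (g⁻¹)⁻¹ := by rw [inv_inv]
      rw [e, conj_zpow, inv_inv]
    rw [h3] at hk
    have h4 : c = z ^ k := by
      have h5 := mul_right_cancel hk
      exact (mul_left_cancel h5).symm
    rw [h4]
    exact Subgroup.zpow_mem_zpowers z k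
  · intro c hc
    obtain ⟨k, hk⟩ := Subgroup.mem_zpowers_iff.1 hc
    rw [Subgroup.mem_centralizer_singleton_iff, ← hk]
    exact ((Commute.refl z).zpow_left k).eq

/-- A `p'`-subgroup meets `⟨x⟩` trivially. -/
theorem scp_inf_coprime (p : ℕ) [Fact p.Prime] (x : G) (hx : orderOf x = p) (S : Subgroup G)
    (hS : ¬ p ∣ Nat.card S) (y : G) (hy : y ∈ Subgroup.zpowers x) (hyS : y ∈ S) : y = 1 := by
  have hp : p.Prime := Fact.out
  have h1 : orderOf y ∣ p := by
    have := Subgroup.orderOf_dvd_natCard (Subgroup.zpowers x) hy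
    rwa [Nat.card_zpowers, hx] at this
  have h2 : orderOf y ∣ Nat.card S := Subgroup.orderOf_dvd_natCard S hyS
  rcases (Nat.dvd_prime hp).1 h1 with h | h
  · exact orderOf_eq_one_iff.1 h
  · exact absurd (h ▸ h2) hS

/-- `x` acts fixed-point-freely on a normal `p'`-subgroup `S`, so every element of `S` is a
commutator with `x`. -/
theorem scp_fpf_surj (p : ℕ) [Fact p.Prime] (x : G) (hx : orderOf x = p)
    (hC : Subgroup.centralizer ({x} : Set G) = Subgroup.zpowers x) (S : Subgroup G)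
    [hSn : S.Normal] (hS : ¬ p ∣ Nat.card S) (s₀ : G) (hs₀ : s₀ ∈ S) :
    ∃ s ∈ S, x⁻¹ * s * x * s⁻¹ = s₀ := by
  let φ : S → S := fun s => ⟨x⁻¹ * s * x * (s : G)⁻¹,
    S.mul_mem (by have := hSn.conj_mem s s.2 x⁻¹; simpa using this) (S.inv_mem s.2)⟩
  have hinj : Function.Injective φ := by
    intro s s' h
    have h1 : x⁻¹ * (s : G) * x * (s : G)⁻¹ = x⁻¹ * (s' : G) * x * (s' : G)⁻¹ :=
      congrArg Subtype.val h
    have h3 : (s : G) * x * (s : G)⁻¹ = (s' : G) * x * (s' : G)⁻¹ := by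
      have := congrArg (fun w => x * w) h1
      simpa [mul_assoc] using this
    have h2 : ((s' : G)⁻¹ * s) * x = x * ((s' : G)⁻¹ * s) := by
      calc ((s' : G)⁻¹ * s) * x = (s' : G)⁻¹ * ((s : G) * x * (s : G)⁻¹) * s := by group
        _ = (s' : G)⁻¹ * ((s' : G) * x * (s' : G)⁻¹) * s := by rw [h3]
        _ = x * ((s' : G)⁻¹ * s) := by group
    have h4 : (s' : G)⁻¹ * s ∈ Subgroup.zpowers x := by
      rw [← hC, Subgroup.mem_centralizer_singleton_iff]; exact h2
    have h5 : (s' : G)⁻¹ * s = 1 :=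
      scp_inf_coprime p x hx S hS _ h4 (S.mul_mem (S.inv_mem s'.2) s.2)
    apply Subtype.ext
    exact (inv_mul_eq_one.1 h5).symm
  have hsurj : Function.Surjective φ := Finite.injective_iff_surjective.1 hinj
  obtain ⟨s, hs⟩ := hsurj ⟨s₀, hs₀⟩
  exact ⟨s, s.2, congrArg Subtype.val hs⟩

/-- A normal subgroup of order divisible by `p` contains `x`. -/
theorem scp_mem_of_dvd (p : ℕ) [Fact p.Prime] (x : G) (hx : orderOf x = p)
    (hC : Subgroup.centralizer ({x} : Set G) = Subgroup.zpowers x) (S : Subgroup G)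
    [hSn : S.Normal] (hS : p ∣ Nat.card S) : x ∈ S := by
  have hp : p.Prime := Fact.out
  obtain ⟨s, hs⟩ := exists_prime_orderOf_dvd_card' (G := S) p hS
  have hz : orderOf (s : G) = p := by rw [Subgroup.orderOf_coe]; exact hs
  obtain ⟨g, hg⟩ := scp_conj p x hx hC (s : G) hz
  have hz1 : (s : G) ≠ 1 := by
    intro h
    rw [h, orderOf_one] at hz
    exact hp.one_lt.ne hz
  have hy1 : g⁻¹ * (s : G) * g ≠ 1 := scp_conj_ne_one g _ hz1
  have hyS : g⁻¹ * (s : G) * g ∈ S := by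
    have := hSn.conj_mem s s.2 g⁻¹
    simpa using this
  have hxy := Cfsg.Agent.Helper3.mem_zpowers_of_prime_order hp hx hg hy1
  exact (Subgroup.zpowers_le.2 hyS) hxy

/-- Frattini argument. -/
theorem scp_frattini (p : ℕ) [Fact p.Prime] (x : G) (hx : orderOf x = p)
    (hC : Subgroup.centralizer ({x} : Set G) = Subgroup.zpowers x) (S : Subgroup G)
    [hSn : S.Normal] (hxS : x ∈ S) (g : G) :
    ∃ l ∈ S, l * g ∈ Subgroup.normalizer ((Subgroup.zpowers x : Subgroup G) : Set G) := by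
  obtain ⟨Q, hQ⟩ := scp_sylow p x hx hC
  obtain ⟨l, hl, hlg⟩ := Cfsg.Agent.Helper4.frattini_inf_normal Q S g
  refine ⟨l, hl, ?_⟩
  have h1 : (Q : Subgroup G) ⊓ S = Subgroup.zpowers x := by
    rw [hQ]; exact inf_eq_left.2 (Subgroup.zpowers_le.2 hxS)
  rw [h1] at hlg
  exact hlg

omit [Finite G] in
/-- Elements of the normalizer of `⟨x⟩` commute modulo `C_G(x)`. -/
theorem scp_normalizer_comm (x : G) (n₁ n₂ : G)
    (h₁ : n₁ ∈ Subgroup.normalizer ((Subgroup.zpowers x : Subgroup G) : Set G))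
    (h₂ : n₂ ∈ Subgroup.normalizer ((Subgroup.zpowers x : Subgroup G) : Set G)) :
    (n₂ * n₁)⁻¹ * (n₁ * n₂) ∈ Subgroup.centralizer ({x} : Set G) := by
  obtain ⟨a, ha⟩ := Subgroup.mem_zpowers_iff.1
    ((Subgroup.mem_normalizer_iff.1 h₁ x).1 (Subgroup.mem_zpowers x))
  obtain ⟨b, hb⟩ := Subgroup.mem_zpowers_iff.1
    ((Subgroup.mem_normalizer_iff.1 h₂ x).1 (Subgroup.mem_zpowers x))
  have e1 : n₁ * n₂ * x * (n₁ * n₂)⁻¹ = x ^ (a * b) := by
    calc n₁ * n₂ * x * (n₁ * n₂)⁻¹ = n₁ * (n₂ * x * n₂⁻¹) * n₁⁻¹ := by group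
      _ = n₁ * x ^ b * n₁⁻¹ := by rw [← hb]
      _ = (n₁ * x * n₁⁻¹) ^ b := by rw [conj_zpow]
      _ = (x ^ a) ^ b := by rw [← ha]
      _ = x ^ (a * b) := by rw [zpow_mul]
  have e2 : n₂ * n₁ * x * (n₂ * n₁)⁻¹ = x ^ (a * b) := by
    calc n₂ * n₁ * x * (n₂ * n₁)⁻¹ = n₂ * (n₁ * x * n₁⁻¹) * n₂⁻¹ := by group
      _ = n₂ * x ^ a * n₂⁻¹ := by rw [← ha]
      _ = (n₂ * x * n₂⁻¹) ^ a := by rw [conj_zpow]
      _ = (x ^ b) ^ a := by rw [← hb]
      _ = x ^ (a * b) := by rw [← zpow_mul, mul_comm]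
  rw [Subgroup.mem_centralizer_singleton_iff]
  have e3 : n₁ * n₂ * x * (n₁ * n₂)⁻¹ = n₂ * n₁ * x * (n₂ * n₁)⁻¹ := e1.trans e2.symm
  calc (n₂ * n₁)⁻¹ * (n₁ * n₂) * x
      = (n₂ * n₁)⁻¹ * (n₁ * n₂ * x * (n₁ * n₂)⁻¹) * (n₁ * n₂) := by group
    _ = (n₂ * n₁)⁻¹ * (n₂ * n₁ * x * (n₂ * n₁)⁻¹) * (n₁ * n₂) := by rw [e3]
    _ = x * ((n₂ * n₁)⁻¹ * (n₁ * n₂)) := by group

/-- Conjugating a nontrivial element of `⟨x⟩` back into `⟨x⟩` means normalizing `⟨x⟩`. -/
theorem scp_conj_mem_iff (p : ℕ) [Fact p.Prime] (x : G) (hx : orderOf x = p) (y₀ : G)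
    (hy₀ : y₀ ∈ Subgroup.zpowers x) (hy₀1 : y₀ ≠ 1) (n : G) :
    n⁻¹ * y₀ * n ∈ Subgroup.zpowers x ↔
      n ∈ Subgroup.normalizer ((Subgroup.zpowers x : Subgroup G) : Set G) := by
  have hp : p.Prime := Fact.out
  have hxy : x ∈ Subgroup.zpowers y₀ :=
    Cfsg.Agent.Helper3.mem_zpowers_of_prime_order hp hx hy₀ hy₀1
  constructor
  · intro h
    rw [← Subgroup.inv_mem_iff]
    apply Subgroup.mem_normalizer_fintype
    intro h' hh'
    have h2 : h' ∈ Subgroup.zpowers y₀ := (Subgroup.zpowers_le.2 hxy) hh'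
    obtain ⟨k, hk⟩ := Subgroup.mem_zpowers_iff.1 h2
    rw [← hk, ← conj_zpow]
    have e : n⁻¹ * y₀ * n⁻¹⁻¹ = n⁻¹ * y₀ * n := by rw [inv_inv]
    rw [e]
    exact Subgroup.zpow_mem _ h k
  · intro h
    have h1 : n⁻¹ ∈ Subgroup.normalizer ((Subgroup.zpowers x : Subgroup G) : Set G) :=
      Subgroup.inv_mem _ h
    have h2 := (Subgroup.mem_normalizer_iff.1 h1 y₀).1 hy₀
    rwa [inv_inv] at h2

/-- The class count: `t * |N_G(⟨x⟩)| = p (p - 1)`. -/
theorem scp_count (p : ℕ) [Fact p.Prime] (x : G) (hx : orderOf x = p)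
    (hC : Subgroup.centralizer ({x} : Set G) = Subgroup.zpowers x) :
    Nat.card {C : ConjClasses G // ∃ g ∈ C.carrier, orderOf g = p} *
      Nat.card (Subgroup.normalizer ((Subgroup.zpowers x : Subgroup G) : Set G)) = p * (p - 1) := by
  classical
  have hp : p.Prime := Fact.out
  haveI : Fintype G := Fintype.ofFinite G
  have hQiff : ∀ z : G, (∃ g ∈ (ConjClasses.mk z).carrier, orderOf g = p) ↔ orderOf z = p := by
    intro z
    constructor
    · rintro ⟨g, hg, hgp⟩
      rw [ConjClasses.mem_carrier_iff_mk_eq] at hg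
      obtain ⟨c, hc⟩ := isConj_iff.1 (ConjClasses.mk_eq_mk_iff_isConj.1 hg)
      rw [← hc, orderOf_conj_eq, hgp]
    · intro h
      exact ⟨z, ConjClasses.mem_carrier_mk, h⟩
  -- (1)
  have h1 : Nat.card {C : ConjClasses G // ∃ g ∈ C.carrier, orderOf g = p} * Nat.card G
      = p * (Finset.univ.filter (fun z : G => orderOf z = p)).card := by
    rw [← sum_card_centralizer_eq (fun C : ConjClasses G => ∃ g ∈ C.carrier, orderOf g = p)]
    rw [Finset.card_eq_sum_ones, Finset.mul_sum, Finset.sum_filter]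
    apply Finset.sum_congr rfl
    intro z _
    by_cases hz : orderOf z = p
    · rw [if_pos ((hQiff z).2 hz), if_pos hz, scp_centralizer p x hx hC z hz, Nat.card_zpowers,
        hz, mul_one]
    · rw [if_neg (fun h => hz ((hQiff z).1 h)), if_neg hz]
  -- (2)
  have h2 : (Finset.univ.filter (fun z : G => orderOf z = p)).card *
      Nat.card (Subgroup.normalizer ((Subgroup.zpowers x : Subgroup G) : Set G))
      = (p - 1) * Nat.card G := by
    have e1 := pair_sum_left (fun g z : G => g⁻¹ * z * g ∈ Subgroup.zpowers x ∧ z ≠ 1)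
    have e2 := pair_sum_right (fun g z : G => g⁻¹ * z * g ∈ Subgroup.zpowers x ∧ z ≠ 1)
    rw [e1] at e2
    have hg : ∀ g : G, Nat.card {z : G // g⁻¹ * z * g ∈ Subgroup.zpowers x ∧ z ≠ 1} = p - 1 := by
      intro g
      have e : Nat.card {z : G // g⁻¹ * z * g ∈ Subgroup.zpowers x ∧ z ≠ 1}
          = Nat.card {y : G // y ∈ Subgroup.zpowers x ∧ y ≠ 1} := by
        apply Nat.card_congr
        refine (MulAut.conj g⁻¹).toEquiv.subtypeEquiv (fun z => ?_)
        simp only [MulEquiv.toEquiv_eq_coe, MulEquiv.coe_toEquiv, MulAut.conj_apply, inv_inv]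
        constructor
        · rintro ⟨h, h'⟩
          exact ⟨h, scp_conj_ne_one g z h'⟩
        · rintro ⟨h, h'⟩
          refine ⟨h, fun h0 => h' ?_⟩
          rw [h0]; group
      rw [e, scp_natCard_subtype_eq]
      have e' : (Finset.univ.filter (fun y : G => y ∈ Subgroup.zpowers x ∧ y ≠ 1))
          = (Finset.univ.filter (fun y : G => y ∈ Subgroup.zpowers x)).erase 1 := by
        ext y; simp [and_comm]
      rw [e', Finset.card_erase_of_mem (Finset.mem_filter.2 ⟨Finset.mem_univ _, Subgroup.one_mem _⟩),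
        ← scp_natCard_subtype_eq (fun y : G => y ∈ Subgroup.zpowers x)]
      have e'' : Nat.card {y : G // y ∈ Subgroup.zpowers x} = p := by
        have := Nat.card_zpowers x; rw [hx] at this; exact this
      rw [e'']
    have hz : ∀ z : G, Nat.card {g : G // g⁻¹ * z * g ∈ Subgroup.zpowers x ∧ z ≠ 1}
        = if orderOf z = p then
            Nat.card (Subgroup.normalizer ((Subgroup.zpowers x : Subgroup G) : Set G)) else 0 := by
      intro z
      by_cases hzp : orderOf z = p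
      · rw [if_pos hzp]
        obtain ⟨g₀, hg₀⟩ := scp_conj p x hx hC z hzp
        have hz1 : z ≠ 1 := by
          rintro rfl
          rw [orderOf_one] at hzp
          exact hp.one_lt.ne hzp
        apply Nat.card_congr
        refine (Equiv.mulLeft g₀⁻¹).subtypeEquiv (fun g => ?_)
        show (g⁻¹ * z * g ∈ Subgroup.zpowers x ∧ z ≠ 1) ↔
          g₀⁻¹ * g ∈ Subgroup.normalizer ((Subgroup.zpowers x : Subgroup G) : Set G)
        rw [← scp_conj_mem_iff p x hx (g₀⁻¹ * z * g₀) hg₀ (scp_conj_ne_one g₀ z hz1) (g₀⁻¹ * g)]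
        have e : (g₀⁻¹ * g)⁻¹ * (g₀⁻¹ * z * g₀) * (g₀⁻¹ * g) = g⁻¹ * z * g := by group
        rw [e]
        exact ⟨fun h => h.1, fun h => ⟨h, hz1⟩⟩
      · rw [if_neg hzp, Nat.card_eq_zero]
        left
        constructor
        rintro ⟨g, hg, hz1⟩
        apply hzp
        have h3 : orderOf (g⁻¹ * z * g) = orderOf z := by
          have := orderOf_conj_eq g⁻¹ z
          rwa [inv_inv] at this
        have h4 : orderOf (g⁻¹ * z * g) ∣ p := by
          have := Subgroup.orderOf_dvd_natCard (Subgroup.zpowers x) hg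
          rwa [Nat.card_zpowers, hx] at this
        rw [h3] at h4
        rcases (Nat.dvd_prime hp).1 h4 with h | h
        · exact absurd (orderOf_eq_one_iff.1 h) hz1
        · exact h
    rw [Finset.sum_congr rfl (fun g _ => hg g), Finset.sum_congr rfl (fun z _ => hz z)] at e2
    rw [Finset.sum_const, smul_eq_mul, ← Finset.sum_filter, Finset.sum_const, smul_eq_mul,
      Finset.card_univ, ← Nat.card_eq_fintype_card] at e2
    rw [← e2, mul_comm]
  -- (3)
  have hGpos : 0 < Nat.card G := Nat.card_pos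
  apply Nat.eq_of_mul_eq_mul_right hGpos
  calc Nat.card {C : ConjClasses G // ∃ g ∈ C.carrier, orderOf g = p} *
        Nat.card (Subgroup.normalizer ((Subgroup.zpowers x : Subgroup G) : Set G)) * Nat.card G
      = (Nat.card {C : ConjClasses G // ∃ g ∈ C.carrier, orderOf g = p} * Nat.card G) *
        Nat.card (Subgroup.normalizer ((Subgroup.zpowers x : Subgroup G) : Set G)) := by ring
    _ = p * ((Finset.univ.filter (fun z : G => orderOf z = p)).card *
        Nat.card (Subgroup.normalizer ((Subgroup.zpowers x : Subgroup G) : Set G))) := by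
      rw [h1]; ring
    _ = p * (p - 1) * Nat.card G := by rw [h2]; ring

end SelfCentP

end Cfsg.Agent.Helper7
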