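import Mathlib
import Cfsg.Agent.Helper7.SelfCentP

set_option autoImplicit false

namespace Cfsg.Agent.Helper7

open scoped commutatorElement

section SelfCentP2

variable {G : Type*} [Group G] [Finite G]

/-- If `N_G(⟨x⟩) = ⟨x⟩` then `G'` is a normal `p`-complement of index `p`. -/
theorem scp_commutator_of_normalizer_eq (p : ℕ) [Fact p.Prime] (x : G) (hx : orderOf x = p)
    (hC : Subgroup.centralizer ({x} : Set G) = Subgroup.zpowers x)
    (hN : Subgroup.normalizer ((Subgroup.zpowers x : Subgroup G) : Set G) = Subgroup.zpowers x) :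
    ¬ p ∣ Nat.card (commutator G) ∧ (commutator G).index = p := by
  have hp : p.Prime := Fact.out
  obtain ⟨Q, hQ⟩ := scp_sylow p x hx hC
  have hcomm : ∀ u ∈ Subgroup.zpowers x, ∀ v ∈ Subgroup.zpowers x, u * v = v * u := by
    intro u hu v hv
    obtain ⟨i, hi⟩ := Subgroup.mem_zpowers_iff.1 hu
    obtain ⟨j, hj⟩ := Subgroup.mem_zpowers_iff.1 hv
    rw [← hi, ← hj]
    exact ((Commute.refl x).zpow_zpow i j).eq
  have hNC : Subgroup.normalizer ((Q : Subgroup G) : Set G) ≤
      Subgroup.centralizer ((Q : Subgroup G) : Set G) := by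
    rw [hQ, hN]
    intro g hg
    rw [Subgroup.mem_centralizer_iff]
    intro h hh
    exact hcomm h hh g hg
  have hcompl := MonoidHom.ker_transferSylow_isComplement' Q hNC
  set K := (MonoidHom.transferSylow Q hNC).ker with hK
  have hKp : ¬ p ∣ Nat.card K := by
    rw [← hcompl.index_eq_card]
    exact Q.not_dvd_index
  have h1 : commutator G ≤ K := by
    rw [commutator_eq_closure, Subgroup.closure_le]
    rintro _ ⟨a, b, rfl⟩
    show ⁅a, b⁆ ∈ (MonoidHom.transferSylow Q hNC).ker
    rw [MonoidHom.mem_ker, map_commutatorElement, commutatorElement_eq_one_iff_mul_comm]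
    apply Subtype.ext
    rw [Subgroup.coe_mul, Subgroup.coe_mul]
    apply hcomm
    · rw [← hQ]; exact Subtype.property _
    · rw [← hQ]; exact Subtype.property _
  have h2 : K ≤ commutator G := by
    intro k hk
    obtain ⟨s, -, hs⟩ := scp_fpf_surj p x hx hC K hKp k hk
    rw [← hs, commutator_def]
    have e : x⁻¹ * s * x * s⁻¹ = ⁅x⁻¹, s⁆ := by
      rw [commutatorElement_def, inv_inv]
    rw [e]
    exact Subgroup.commutator_mem_commutator (Subgroup.mem_top _) (Subgroup.mem_top _)
  have h3 : commutator G = K := le_antisymm h1 h2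
  rw [h3]
  refine ⟨hKp, ?_⟩
  rw [hcompl.symm.index_eq_card, hQ, Nat.card_zpowers, hx]

/-- If `N_G(⟨x⟩) ≠ ⟨x⟩` then `x ∈ G'`. -/
theorem scp_mem_commutator_of_normalizer_ne (p : ℕ) [Fact p.Prime] (x : G) (hx : orderOf x = p)
    (hC : Subgroup.centralizer ({x} : Set G) = Subgroup.zpowers x)
    (hN : Subgroup.normalizer ((Subgroup.zpowers x : Subgroup G) : Set G) ≠ Subgroup.zpowers x) :
    x ∈ commutator G := by
  have hp : p.Prime := Fact.out
  have hex : ∃ n ∈ Subgroup.normalizer ((Subgroup.zpowers x : Subgroup G) : Set G),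
      n ∉ Subgroup.zpowers x := by
    by_contra hcon
    push Not at hcon
    exact hN (le_antisymm hcon Subgroup.le_normalizer)
  obtain ⟨n, hn, hnx⟩ := hex
  have hc : n * x * n⁻¹ * x⁻¹ ∈ Subgroup.zpowers x :=
    Subgroup.mul_mem _ ((Subgroup.mem_normalizer_iff.1 hn x).1 (Subgroup.mem_zpowers x))
      (Subgroup.inv_mem _ (Subgroup.mem_zpowers x))
  have hc1 : n * x * n⁻¹ * x⁻¹ ≠ 1 := by
    intro h
    apply hnx
    rw [← hC, Subgroup.mem_centralizer_singleton_iff]
    calc n * x = (n * x * n⁻¹ * x⁻¹) * (x * n) := by group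
      _ = x * n := by rw [h, one_mul]
  have hxc := Cfsg.Agent.Helper3.mem_zpowers_of_prime_order hp hx hc hc1
  have hcG : n * x * n⁻¹ * x⁻¹ ∈ commutator G := by
    rw [commutator_def]
    have e : n * x * n⁻¹ * x⁻¹ = ⁅n, x⁆ := by rw [commutatorElement_def]
    rw [e]
    exact Subgroup.commutator_mem_commutator (Subgroup.mem_top _) (Subgroup.mem_top _)
  exact (Subgroup.zpowers_le.2 hcG) hxc

/-- If `x ∈ G'` then `|G : G'| · p ≤ |N_G(⟨x⟩)|`. -/
theorem scp_index_commutator_mul_le (p : ℕ) [Fact p.Prime] (x : G) (hx : orderOf x = p)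
    (hC : Subgroup.centralizer ({x} : Set G) = Subgroup.zpowers x) (hxG : x ∈ commutator G) :
    (commutator G).index * p ≤
      Nat.card (Subgroup.normalizer ((Subgroup.zpowers x : Subgroup G) : Set G)) := by
  set N := Subgroup.normalizer ((Subgroup.zpowers x : Subgroup G) : Set G) with hNdef
  have hsup : N ⊔ commutator G = ⊤ := by
    rw [eq_top_iff]
    intro g _
    obtain ⟨l, hl, hlg⟩ := scp_frattini p x hx hC (commutator G) hxG g
    have e : g = l⁻¹ * (l * g) := by group
    rw [e]
    exact Subgroup.mul_mem _ (Subgroup.mem_sup_right (Subgroup.inv_mem _ hl))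
      (Subgroup.mem_sup_left hlg)
  have h1 : (commutator G).index = (commutator G).relIndex N := by
    rw [← Subgroup.relIndex_sup_right N (commutator G), hsup, Subgroup.relIndex_top_right]
  have h2 : Nat.card ((commutator G).subgroupOf N) * (commutator G).relIndex N = Nat.card N :=
    Subgroup.card_mul_index ((commutator G).subgroupOf N)
  have hxN : x ∈ N := Subgroup.le_normalizer (Subgroup.mem_zpowers x)
  have h3 : p ≤ Nat.card ((commutator G).subgroupOf N) := by
    have hmem : (⟨x, hxN⟩ : N) ∈ (commutator G).subgroupOf N := Subgroup.mem_subgroupOf.2 hxG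
    have h4 := Subgroup.orderOf_dvd_natCard ((commutator G).subgroupOf N) hmem
    rw [Subgroup.orderOf_mk, hx] at h4
    exact Nat.le_of_dvd Nat.card_pos h4
  rw [h1, ← h2, mul_comm]
  exact Nat.mul_le_mul_right _ h3

end SelfCentP2

end Cfsg.Agent.Helper7
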