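import Mathlib
import Cfsg.Agent.Helper7.Stem

set_option autoImplicit false

namespace Cfsg.Agent.Helper7

open scoped commutatorElement

/-- A central extension, with kernel inside the commutator subgroup, of a group generated by
`σ r` and `σ s`, where `σ s` inverts `σ r` and `r ^ n` commutes with `s`: the kernel lies in
the cyclic group generated by the commutator `c` of `s` and `r`, and `c ^ n = 1`. -/
theorem exists_ker_le_zpowers_of_inverting {Γ Q : Type*} [Group Γ] [Group Q] (σ : Γ →* Q)
    (hcen : σ.ker ≤ Subgroup.center Γ) (hcomm : σ.ker ≤ commutator Γ)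
    (r s : Γ) (hgen : Subgroup.closure {σ r, σ s} = ⊤)
    (hinv : σ s * σ r * (σ s)⁻¹ = (σ r)⁻¹)
    (n : ℕ) (hrn : Commute (r ^ n) s) :
    ∃ c : Γ, c ^ n = 1 ∧ σ c = (σ r ^ 2)⁻¹ ∧ σ.ker ≤ Subgroup.zpowers c := by
  have hzker : s * r * s⁻¹ * r ∈ σ.ker := by
    rw [MonoidHom.mem_ker, map_mul, map_mul, map_mul, map_inv, hinv, inv_mul_cancel]
  have hzc : ∀ g : Γ, g * (s * r * s⁻¹ * r) = (s * r * s⁻¹ * r) * g := by
    have h1 := hcen hzker
    rw [Subgroup.mem_center_iff] at h1
    exact h1
  have hrt : r * (s * r * s⁻¹) = (s * r * s⁻¹) * r := by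
    have h1 := hzc r
    have h2 : r * (s * r * s⁻¹ * r) = r * (s * r * s⁻¹) * r := by group
    rw [h2] at h1
    exact mul_right_cancel h1
  have hst : s * (s * r * s⁻¹) * s⁻¹ = r := by
    calc s * (s * r * s⁻¹) * s⁻¹ = (s * (s * r * s⁻¹ * r)) * s⁻¹ * (s * r * s⁻¹)⁻¹ := by group
      _ = ((s * r * s⁻¹ * r) * s) * s⁻¹ * (s * r * s⁻¹)⁻¹ := by rw [hzc s]
      _ = ((s * r * s⁻¹) * r) * (s * r * s⁻¹)⁻¹ := by group
      _ = (r * (s * r * s⁻¹)) * (s * r * s⁻¹)⁻¹ := by rw [hrt]
      _ = r := by group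
  obtain ⟨c, hc⟩ : ∃ c, c = s * r * s⁻¹ * r⁻¹ := ⟨_, rfl⟩
  have hrc : r * c * r⁻¹ = c := by
    calc r * c * r⁻¹ = (r * (s * r * s⁻¹)) * r⁻¹ * r⁻¹ := by rw [hc]; group
      _ = ((s * r * s⁻¹) * r) * r⁻¹ * r⁻¹ := by rw [hrt]
      _ = c := by rw [hc]; group
  have hsc : s * c * s⁻¹ = c⁻¹ := by
    calc s * c * s⁻¹ = (s * (s * r * s⁻¹) * s⁻¹) * (s * r * s⁻¹)⁻¹ := by rw [hc]; group
      _ = r * (s * r * s⁻¹)⁻¹ := by rw [hst]
      _ = c⁻¹ := by rw [hc]; group
  -- generation
  have hsup : Subgroup.closure ({r, s} ∪ (σ.ker : Set Γ)) = ⊤ := by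
    rw [eq_top_iff]
    intro g _
    have h1 : σ g ∈ Subgroup.map σ (Subgroup.closure {r, s}) := by
      rw [MonoidHom.map_closure, Set.image_pair, hgen]
      trivial
    obtain ⟨b, hb, hbg⟩ := h1
    have h2 : b⁻¹ * g ∈ σ.ker := by
      rw [MonoidHom.mem_ker, map_mul, map_inv, hbg, inv_mul_cancel]
    have h3 : g = b * (b⁻¹ * g) := by group
    rw [h3]
    refine Subgroup.mul_mem _ ?_ ?_
    · exact Subgroup.closure_mono Set.subset_union_left hb
    · exact Subgroup.subset_closure (Set.mem_union_right _ h2)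
  -- `⟨c⟩` is normal
  have hall : ∀ g : Γ, g ∈ invCentralizer c := by
    intro g
    have h1 : Subgroup.closure ({r, s} ∪ (σ.ker : Set Γ)) ≤ invCentralizer c := by
      rw [Subgroup.closure_le]
      rintro x (hx | hx)
      · rcases hx with rfl | hx
        · exact Or.inl hrc
        · rw [Set.mem_singleton_iff] at hx
          rw [hx]
          exact Or.inr hsc
      · left
        have h2 := hcen hx
        rw [Subgroup.mem_center_iff] at h2
        rw [← h2 c, mul_inv_cancel_right]
    rw [hsup] at h1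
    exact h1 (Subgroup.mem_top g)
  haveI hN : (Subgroup.zpowers c).Normal := by
    constructor
    intro x hx g
    obtain ⟨i, rfl⟩ := Subgroup.mem_zpowers_iff.1 hx
    have h1 : g * c ^ i * g⁻¹ = (g * c * g⁻¹) ^ i := by
      rw [conj_zpow]
    rw [h1]
    rcases hall g with h2 | h2
    · rw [h2]
      exact Subgroup.zpow_mem _ (Subgroup.mem_zpowers c) i
    · rw [h2]
      exact Subgroup.zpow_mem _ (Subgroup.inv_mem _ (Subgroup.mem_zpowers c)) i
  -- the quotient is commutative
  have hcommQ : ∀ x y : Γ, Commute (QuotientGroup.mk' (Subgroup.zpowers c) x)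
      (QuotientGroup.mk' (Subgroup.zpowers c) y) := by
    intro x y
    have hx : x ∈ Subgroup.closure ({r, s} ∪ (σ.ker : Set Γ)) := by rw [hsup]; trivial
    have hy : y ∈ Subgroup.closure ({r, s} ∪ (σ.ker : Set Γ)) := by rw [hsup]; trivial
    have hsr : Commute (QuotientGroup.mk' (Subgroup.zpowers c) s)
        (QuotientGroup.mk' (Subgroup.zpowers c) r) := by
      show QuotientGroup.mk' (Subgroup.zpowers c) s * QuotientGroup.mk' (Subgroup.zpowers c) r =
        QuotientGroup.mk' (Subgroup.zpowers c) r * QuotientGroup.mk' (Subgroup.zpowers c) s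
      rw [← map_mul, ← map_mul]
      symm
      show ((r * s : Γ) : Γ ⧸ Subgroup.zpowers c) = ((s * r : Γ) : Γ ⧸ Subgroup.zpowers c)
      rw [QuotientGroup.eq]
      have e : (r * s)⁻¹ * (s * r) = s⁻¹ * (r⁻¹ * c * r⁻¹⁻¹) * s⁻¹⁻¹ := by
        rw [hc]
        group
      rw [e]
      exact hN.conj_mem _ (hN.conj_mem _ (Subgroup.mem_zpowers c) _) _
    refine Subgroup.closure_induction₂ (p := fun x y _ _ =>
      Commute (QuotientGroup.mk' (Subgroup.zpowers c) x)
      (QuotientGroup.mk' (Subgroup.zpowers c) y)) ?_ ?_ ?_ ?_ ?_ ?_ ?_ hx hy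
    · intro x y hx hy
      have hker : ∀ a b : Γ, a ∈ σ.ker → Commute (QuotientGroup.mk' (Subgroup.zpowers c) a)
          (QuotientGroup.mk' (Subgroup.zpowers c) b) := by
        intro a b ha
        have h2 := hcen ha
        rw [Subgroup.mem_center_iff] at h2
        have h3 : Commute a b := (h2 b).symm
        exact h3.map _
      rcases hx with hx | hx
      · rcases hy with hy | hy
        · rw [Set.mem_insert_iff, Set.mem_singleton_iff] at hx hy
          rcases hx with hx | hx
          · rcases hy with hy | hy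
            · rw [hx, hy]
            · rw [hx, hy]
              exact hsr.symm
          · rcases hy with hy | hy
            · rw [hx, hy]
              exact hsr
            · rw [hx, hy]
        · exact (hker y x hy).symm
      · exact hker x y hx
    · intro x _
      rw [map_one]
      exact Commute.one_left _
    · intro x _
      rw [map_one]
      exact Commute.one_right _
    · intro x y z _ _ _ h1 h2
      rw [map_mul]
      exact h1.mul_left h2
    · intro y z x _ _ _ h1 h2
      rw [map_mul]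
      exact h1.mul_right h2
    · intro x y _ _ h1
      rw [map_inv]
      exact h1.inv_left
    · intro x y _ _ h1
      rw [map_inv]
      exact h1.inv_right
  have hcommle : commutator Γ ≤ Subgroup.zpowers c := by
    rw [commutator_def, Subgroup.commutator_le]
    intro x _ y _
    rw [← QuotientGroup.eq_one_iff, commutatorElement_def]
    have h1 := (hcommQ x y).eq
    have h2 : ((x * y * x⁻¹ * y⁻¹ : Γ) : Γ ⧸ Subgroup.zpowers c) =
        QuotientGroup.mk' (Subgroup.zpowers c) x * QuotientGroup.mk' (Subgroup.zpowers c) y *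
        (QuotientGroup.mk' (Subgroup.zpowers c) x)⁻¹ *
        (QuotientGroup.mk' (Subgroup.zpowers c) y)⁻¹ := rfl
    rw [h2, h1, mul_inv_cancel_right, mul_inv_cancel]
  -- `c ^ n = 1`
  have hcn : c ^ n = 1 := by
    have h1 : Commute (s * r * s⁻¹) r⁻¹ := by
      have h2 : Commute r (s * r * s⁻¹) := hrt
      exact h2.symm.inv_right
    have h3 : (s * r * s⁻¹) ^ n = r ^ n := by
      rw [conj_pow, ← hrn.eq, mul_inv_cancel_right]
    rw [hc, h1.mul_pow, h3, inv_pow, mul_inv_cancel]
  -- order of the image of `c`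
  have hσc : σ c = (σ r ^ 2)⁻¹ := by
    rw [hc, map_mul, map_mul, map_mul, map_inv, map_inv, hinv, pow_two, mul_inv_rev]
  exact ⟨c, hcn, hσc, fun a ha => hcommle (hcomm ha)⟩

end Cfsg.Agent.Helper7
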