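import Mathlib

set_option autoImplicit false

namespace Cfsg.Agent.Helper7

open scoped commutatorElement

/-- A central extension, with kernel inside the commutator subgroup, of a group generated by two
commuting elements `σ x`, `σ y`: the kernel is generated by the commutator `⁅x, y⁆`. -/
theorem ker_le_zpowers_of_commuting {Γ Q : Type*} [Group Γ] [Group Q] (σ : Γ →* Q)
    (hcen : σ.ker ≤ Subgroup.center Γ) (hcomm : σ.ker ≤ commutator Γ)
    (x y : Γ) (hgen : Subgroup.closure {σ x, σ y} = ⊤) (hxy : σ x * σ y = σ y * σ x) :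
    ⁅x, y⁆ ∈ σ.ker ∧ σ.ker ≤ Subgroup.zpowers ⁅x, y⁆ ∧ ∀ k : ℕ, ⁅x, y ^ k⁆ = ⁅x, y⁆ ^ k := by
  have hcker : ⁅x, y⁆ ∈ σ.ker := by
    rw [MonoidHom.mem_ker, commutatorElement_def, map_mul, map_mul, map_mul, map_inv, map_inv,
      hxy, mul_inv_cancel_right, mul_inv_cancel]
  have hcc : ∀ g : Γ, g * ⁅x, y⁆ = ⁅x, y⁆ * g := by
    have h1 := hcen hcker
    rw [Subgroup.mem_center_iff] at h1
    exact h1
  obtain ⟨c, hc⟩ : ∃ c, c = ⁅x, y⁆ := ⟨_, rfl⟩
  rw [← hc] at hcker hcc ⊢
  have hsup : Subgroup.closure ({x, y} ∪ (σ.ker : Set Γ)) = ⊤ := by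
    rw [eq_top_iff]
    intro g _
    have h1 : σ g ∈ Subgroup.map σ (Subgroup.closure {x, y}) := by
      rw [MonoidHom.map_closure, Set.image_pair, hgen]
      trivial
    obtain ⟨b, hb, hbg⟩ := h1
    have h2 : b⁻¹ * g ∈ σ.ker := by
      rw [MonoidHom.mem_ker, map_mul, map_inv, hbg, inv_mul_cancel]
    have h3 : g = b * (b⁻¹ * g) := by group
    rw [h3]
    refine Subgroup.mul_mem _ ?_ ?_
    · exact Subgroup.closure_mono Set.subset_union_left hb
    · exact Subgroup.subset_closure (Set.mem_union_right _ h2)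
  haveI hN : (Subgroup.zpowers c).Normal := by
    constructor
    intro z hz g
    obtain ⟨i, rfl⟩ := Subgroup.mem_zpowers_iff.1 hz
    have h1 : g * c ^ i * g⁻¹ = c ^ i := by
      rw [← conj_zpow, hcc g, mul_inv_cancel_right]
    rw [h1]
    exact Subgroup.zpow_mem _ (Subgroup.mem_zpowers c) i
  have hcommQ : ∀ u v : Γ, Commute (QuotientGroup.mk' (Subgroup.zpowers c) u)
      (QuotientGroup.mk' (Subgroup.zpowers c) v) := by
    intro u v
    have hu : u ∈ Subgroup.closure ({x, y} ∪ (σ.ker : Set Γ)) := by rw [hsup]; trivial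
    have hv : v ∈ Subgroup.closure ({x, y} ∪ (σ.ker : Set Γ)) := by rw [hsup]; trivial
    have hyx : Commute (QuotientGroup.mk' (Subgroup.zpowers c) x)
        (QuotientGroup.mk' (Subgroup.zpowers c) y) := by
      show QuotientGroup.mk' (Subgroup.zpowers c) x * QuotientGroup.mk' (Subgroup.zpowers c) y =
        QuotientGroup.mk' (Subgroup.zpowers c) y * QuotientGroup.mk' (Subgroup.zpowers c) x
      rw [← map_mul, ← map_mul]
      symm
      show ((y * x : Γ) : Γ ⧸ Subgroup.zpowers c) = ((x * y : Γ) : Γ ⧸ Subgroup.zpowers c)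
      rw [QuotientGroup.eq]
      have e : (y * x)⁻¹ * (x * y) = x⁻¹ * (y⁻¹ * c * y⁻¹⁻¹) * x⁻¹⁻¹ := by
        rw [hc, commutatorElement_def]
        group
      rw [e]
      exact hN.conj_mem _ (hN.conj_mem _ (Subgroup.mem_zpowers c) _) _
    refine Subgroup.closure_induction₂ (p := fun u v _ _ =>
      Commute (QuotientGroup.mk' (Subgroup.zpowers c) u)
      (QuotientGroup.mk' (Subgroup.zpowers c) v)) ?_ ?_ ?_ ?_ ?_ ?_ ?_ hu hv
    · intro u v hu hv
      have hker : ∀ a b : Γ, a ∈ σ.ker → Commute (QuotientGroup.mk' (Subgroup.zpowers c) a)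
          (QuotientGroup.mk' (Subgroup.zpowers c) b) := by
        intro a b ha
        have h2 := hcen ha
        rw [Subgroup.mem_center_iff] at h2
        have h3 : Commute a b := (h2 b).symm
        exact h3.map _
      rcases hu with hu | hu
      · rcases hv with hv | hv
        · rw [Set.mem_insert_iff, Set.mem_singleton_iff] at hu hv
          rcases hu with hu | hu
          · rcases hv with hv | hv
            · rw [hu, hv]
            · rw [hu, hv]
              exact hyx
          · rcases hv with hv | hv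
            · rw [hu, hv]
              exact hyx.symm
            · rw [hu, hv]
        · exact (hker v u hv).symm
      · exact hker u v hu
    · intro u _
      rw [map_one]
      exact Commute.one_left _
    · intro u _
      rw [map_one]
      exact Commute.one_right _
    · intro u v w _ _ _ h1 h2
      rw [map_mul]
      exact h1.mul_left h2
    · intro v w u _ _ _ h1 h2
      rw [map_mul]
      exact h1.mul_right h2
    · intro u v _ _ h1
      rw [map_inv]
      exact h1.inv_left
    · intro u v _ _ h1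
      rw [map_inv]
      exact h1.inv_right
  have hcommle : commutator Γ ≤ Subgroup.zpowers c := by
    rw [commutator_def, Subgroup.commutator_le]
    intro u _ v _
    rw [← QuotientGroup.eq_one_iff, commutatorElement_def]
    have h1 := (hcommQ u v).eq
    have h2 : ((u * v * u⁻¹ * v⁻¹ : Γ) : Γ ⧸ Subgroup.zpowers c) =
        QuotientGroup.mk' (Subgroup.zpowers c) u * QuotientGroup.mk' (Subgroup.zpowers c) v *
        (QuotientGroup.mk' (Subgroup.zpowers c) u)⁻¹ *
        (QuotientGroup.mk' (Subgroup.zpowers c) v)⁻¹ := rfl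
    rw [h2, h1, mul_inv_cancel_right, mul_inv_cancel]
  refine ⟨hcker, fun a ha => hcommle (hcomm ha), ?_⟩
  intro k
  induction k with
  | zero =>
    rw [pow_zero, pow_zero, commutatorElement_def]
    group
  | succ k ih =>
    have h1 : ⁅x, y ^ (k + 1)⁆ = x * y ^ k * x⁻¹ * ⁅x, y⁆ * (y ^ k)⁻¹ := by
      rw [commutatorElement_def, commutatorElement_def, pow_succ]
      group
    calc ⁅x, y ^ (k + 1)⁆ = (x * y ^ k * x⁻¹) * c * (y ^ k)⁻¹ := by rw [h1, hc]
      _ = c * (x * y ^ k * x⁻¹) * (y ^ k)⁻¹ := by rw [hcc (x * y ^ k * x⁻¹)]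
      _ = c * ⁅x, y ^ k⁆ := by rw [commutatorElement_def]; group
      _ = c ^ (k + 1) := by rw [ih, pow_succ']

end Cfsg.Agent.Helper7
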