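import Mathlib
import Cfsg.Prelude.Def_KGroupFacts

set_option autoImplicit false

namespace Cfsg.Agent.Helper7

universe u

/-- A finite group all of whose finite stem extensions are isomorphisms has trivial Schur
multiplier. -/
theorem hasCyclicSchurMultiplier_one_of_forall_ker_eq_bot {Q : Type u} [Group Q] [Finite Q]
    (h : ∀ (Γ : Type u) [Group Γ] [Finite Γ] (σ : Γ →* Q), Cfsg.IsStemExtension σ → σ.ker = ⊥) :
    Cfsg.HasCyclicSchurMultiplier Q 1 := by
  constructor
  · refine ⟨Q, inferInstance, inferInstance, MonoidHom.id Q, ⟨?_, ?_, ?_⟩, ?_⟩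
    · exact Function.surjective_id
    · rw [MonoidHom.ker_id]; exact bot_le
    · rw [MonoidHom.ker_id]; exact bot_le
    · have h1 : Subsingleton (MonoidHom.id Q).ker := by
        rw [MonoidHom.ker_id]
        infer_instance
      have h2 : Subsingleton (Multiplicative (ZMod 1)) := by
        show Subsingleton (Fin 1)
        infer_instance
      exact ⟨{ toFun := fun _ => 1
               invFun := fun _ => 1
               left_inv := fun _ => Subsingleton.elim _ _
               right_inv := fun _ => Subsingleton.elim _ _
               map_mul' := fun _ _ => Subsingleton.elim _ _ }⟩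
  · intro Γ _ _ σ hσ
    have hbot := h Γ σ hσ
    refine ⟨1, ?_⟩
    intro y
    refine ⟨1, ?_⟩
    apply Subtype.ext
    have h2 : ∀ x : Γ, x ∈ σ.ker → x = 1 := by
      intro x hx
      rw [hbot, Subgroup.mem_bot] at hx
      exact hx
    rw [h2 y.1 y.2]
    rfl

end Cfsg.Agent.Helper7
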