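import Mathlib
import Cfsg.Prelude.Def_ClassicalGeometry
import Cfsg.Agent.Helper2.Symp
import Cfsg.Agent.Helper7.SympTrans
import Cfsg.Agent.Helper7.SympCard

set_option autoImplicit false

namespace Cfsg.Agent.Helper7.SympStab

open Matrix Cfsg.Agent.Helper7.SympTrans Cfsg.Agent.Helper7.SympCard

variable {F : Type*} [Field F] (m : ℕ)

lemma form_smul_left (c : F) (x y : Fin m ⊕ Fin m → F) :
    Cfsg.sympForm m F (c • x) y = c * Cfsg.sympForm m F x y := by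
  unfold Cfsg.sympForm
  rw [smul_dotProduct, smul_eq_mul]

lemma rank_one_decomp {n : Type*} [Fintype n] [DecidableEq n] (M : Matrix n n F) (h : M.rank = 1) :
    ∃ a b : n → F, a ≠ 0 ∧ M = vecMulVec a b := by
  unfold Matrix.rank at h
  rw [finrank_eq_one_iff'] at h
  obtain ⟨⟨a, ha⟩, ha0, hspan⟩ := h
  have ha0' : a ≠ 0 := fun h0 => ha0 (Subtype.ext h0)
  have hcol : ∀ j : n, ∃ c : F, c • a = M *ᵥ Pi.single j 1 := by
    intro j
    obtain ⟨c, hc⟩ := hspan ⟨M *ᵥ Pi.single j 1, ⟨Pi.single j 1, rfl⟩⟩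
    exact ⟨c, congrArg Subtype.val hc⟩
  choose b hb using hcol
  refine ⟨a, b, ha0', ?_⟩
  ext i j
  have h1 := congrFun (hb j) i
  rw [Matrix.mulVec_single_one] at h1
  rw [vecMulVec_apply]
  simp only [Pi.smul_apply, smul_eq_mul] at h1
  rw [mul_comm]
  exact h1.symm

lemma symp_rank_one (t : Matrix (Fin m ⊕ Fin m) (Fin m ⊕ Fin m) F)
    (ht : t ∈ Matrix.symplecticGroup (Fin m) F) (hr : (t - 1).rank = 1) :
    ∃ (a : Fin m ⊕ Fin m → F) (c : F), a ≠ 0 ∧ c ≠ 0 ∧ t = Cfsg.sympTransvection m a c := by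
  obtain ⟨a, b, ha0, hab⟩ := rank_one_decomp (t - 1) hr
  have ht' : t = 1 + vecMulVec a b := by rw [← hab]; abel
  have hmv : ∀ x, t *ᵥ x = x + (b ⬝ᵥ x) • a := by
    intro x
    rw [ht', add_mulVec, one_mulVec, vecMulVec_mulVec, op_smul_eq_smul]
  have hinv : ∀ x y, (b ⬝ᵥ y) * Cfsg.sympForm m F x a = (b ⬝ᵥ x) * Cfsg.sympForm m F y a := by
    intro x y
    have h1 := form_invariant m t ht x y
    rw [hmv x, hmv y, form_add_left, form_add_right, form_add_right, form_smul_left, form_smul_right,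
      form_smul_right, form_smul_left, form_self, form_swap m y a] at h1
    linear_combination h1
  obtain ⟨y0, hy0⟩ := form_nondeg m a ha0
  have hy0' : Cfsg.sympForm m F y0 a ≠ 0 := by rw [form_swap]; exact neg_ne_zero.mpr hy0
  obtain ⟨c, hc⟩ : ∃ c, c = (b ⬝ᵥ y0) / Cfsg.sympForm m F y0 a := ⟨_, rfl⟩
  have hbx : ∀ x, b ⬝ᵥ x = c * Cfsg.sympForm m F x a := by
    intro x
    have h2 := hinv x y0
    rw [hc, div_mul_eq_mul_div, eq_div_iff hy0']
    linear_combination -h2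
  have htT : t = Cfsg.sympTransvection m a c := by
    apply Matrix.mulVec_injective
    funext x
    rw [hmv, trans_mulVec, hbx]
  refine ⟨a, c, ha0, ?_, htT⟩
  rintro hc0
  rw [htT, hc0] at hr
  unfold Cfsg.sympTransvection at hr
  simp at hr

/-- stabilizer of a vector -/
def StabV (a : Fin m ⊕ Fin m → F) : Subgroup (Matrix.symplecticGroup (Fin m) F) where
  carrier := {g | (g : Matrix (Fin m ⊕ Fin m) (Fin m ⊕ Fin m) F) *ᵥ a = a}
  mul_mem' := by
    intro g h hg hh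
    show ((g : Matrix (Fin m ⊕ Fin m) (Fin m ⊕ Fin m) F) * (h : Matrix (Fin m ⊕ Fin m) (Fin m ⊕ Fin m) F)) *ᵥ a = a
    rw [← mulVec_mulVec, hh, hg]
  one_mem' := one_mulVec a
  inv_mem' := by
    intro g hg
    exact inv_mulVec_of m g a a hg

lemma mem_StabV (a : Fin m ⊕ Fin m → F) (g : Matrix.symplecticGroup (Fin m) F) :
    g ∈ StabV m a ↔ (g : Matrix (Fin m ⊕ Fin m) (Fin m ⊕ Fin m) F) *ᵥ a = a := Iff.rfl

/-- chosen mover -/
noncomputable def Mv (a : Fin m ⊕ Fin m → F) (ha : a ≠ 0) (w : {w : Fin m ⊕ Fin m → F // w ≠ 0}) :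
    Matrix.symplecticGroup (Fin m) F :=
  Classical.choose (exists_move_ne_zero m a w.1 ha w.2)

lemma Mv_spec (a : Fin m ⊕ Fin m → F) (ha : a ≠ 0) (w : {w : Fin m ⊕ Fin m → F // w ≠ 0}) :
    (Mv m a ha w : Matrix (Fin m ⊕ Fin m) (Fin m ⊕ Fin m) F) *ᵥ a = w.1 :=
  (Classical.choose_spec (exists_move_ne_zero m a w.1 ha w.2)).2

lemma mulVec_ne_zero (g : Matrix.symplecticGroup (Fin m) F) (a : Fin m ⊕ Fin m → F) (ha : a ≠ 0) :
    (g : Matrix (Fin m ⊕ Fin m) (Fin m ⊕ Fin m) F) *ᵥ a ≠ 0 := by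
  intro h
  have := inv_mulVec_of m g a 0 h
  rw [mulVec_zero] at this
  exact ha this.symm

noncomputable def stabEquiv (a : Fin m ⊕ Fin m → F) (ha : a ≠ 0) :
    Matrix.symplecticGroup (Fin m) F ≃ {w : Fin m ⊕ Fin m → F // w ≠ 0} × ↥(StabV m a) where
  toFun g := (⟨(g : Matrix (Fin m ⊕ Fin m) (Fin m ⊕ Fin m) F) *ᵥ a, mulVec_ne_zero m g a ha⟩,
    ⟨(Mv m a ha ⟨(g : Matrix (Fin m ⊕ Fin m) (Fin m ⊕ Fin m) F) *ᵥ a, mulVec_ne_zero m g a ha⟩)⁻¹ * g, by
      show ((((Mv m a ha ⟨(g : Matrix (Fin m ⊕ Fin m) (Fin m ⊕ Fin m) F) *ᵥ a, mulVec_ne_zero m g a ha⟩)⁻¹ :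
        Matrix.symplecticGroup (Fin m) F) : Matrix (Fin m ⊕ Fin m) (Fin m ⊕ Fin m) F) *
        (g : Matrix (Fin m ⊕ Fin m) (Fin m ⊕ Fin m) F)) *ᵥ a = a
      rw [← mulVec_mulVec]
      exact inv_mulVec_of m _ _ _ (Mv_spec m a ha _)⟩)
  invFun p := Mv m a ha p.1 * p.2.1
  left_inv g := by
    show Mv m a ha _ * ((Mv m a ha _)⁻¹ * g) = g
    group
  right_inv p := by
    obtain ⟨w, s⟩ := p
    have h1 : ((Mv m a ha w * s.1 : Matrix.symplecticGroup (Fin m) F) :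
        Matrix (Fin m ⊕ Fin m) (Fin m ⊕ Fin m) F) *ᵥ a = w.1 := by
      show ((Mv m a ha w : Matrix (Fin m ⊕ Fin m) (Fin m ⊕ Fin m) F) *
        (s.1 : Matrix (Fin m ⊕ Fin m) (Fin m ⊕ Fin m) F)) *ᵥ a = w.1
      rw [← mulVec_mulVec, s.2, Mv_spec]
    have h2 : (⟨((Mv m a ha w * s.1 : Matrix.symplecticGroup (Fin m) F) :
        Matrix (Fin m ⊕ Fin m) (Fin m ⊕ Fin m) F) *ᵥ a, mulVec_ne_zero m _ a ha⟩ :
        {w : Fin m ⊕ Fin m → F // w ≠ 0}) = w := Subtype.ext h1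
    apply Prod.ext
    · exact h2
    · apply Subtype.ext
      show (Mv m a ha ⟨((Mv m a ha w * s.1 : Matrix.symplecticGroup (Fin m) F) :
        Matrix (Fin m ⊕ Fin m) (Fin m ⊕ Fin m) F) *ᵥ a, _⟩)⁻¹ * (Mv m a ha w * s.1) = s.1
      rw [h2]
      group

lemma card_StabV [Fintype F] (a : Fin m ⊕ Fin m → F) (ha : a ≠ 0) :
    Nat.card (Matrix.symplecticGroup (Fin m) F) =
      (Fintype.card F ^ (2 * m) - 1) * Nat.card ↥(StabV m a) := by
  classical
  rw [Nat.card_congr (stabEquiv m a ha), Nat.card_prod]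
  congr 1
  have h2 : Nat.card {w : Fin m ⊕ Fin m → F // w ≠ 0} =
      ({(0 : Fin m ⊕ Fin m → F)}ᶜ : Set (Fin m ⊕ Fin m → F)).ncard := by
    rw [← Nat.card_coe_set_eq]
    rfl
  rw [h2, Set.ncard_compl, Set.ncard_singleton, Nat.card_eq_fintype_card, Fintype.card_fun,
    Fintype.card_sum, Fintype.card_fin, two_mul]

/-- in characteristic 2 the centralizer of a transvection is the stabilizer of its centre vector -/
lemma centralizer_eq_StabV [CharP F 2] (a : Fin m ⊕ Fin m → F) (c : F) (ha : a ≠ 0) (hc : c ≠ 0)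
    (t : Matrix.symplecticGroup (Fin m) F)
    (ht : (t : Matrix (Fin m ⊕ Fin m) (Fin m ⊕ Fin m) F) = Cfsg.sympTransvection m a c) :
    Subgroup.centralizer ({t} : Set (Matrix.symplecticGroup (Fin m) F)) = StabV m a := by
  ext g
  rw [Subgroup.mem_centralizer_iff, mem_StabV]
  constructor
  · intro h
    have hcomm : t * g = g * t := h t (Set.mem_singleton t)
    have hcomm' : ∀ x : Fin m ⊕ Fin m → F,
        Cfsg.sympForm m F ((g : Matrix (Fin m ⊕ Fin m) (Fin m ⊕ Fin m) F) *ᵥ x) a • a =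
          Cfsg.sympForm m F x a • ((g : Matrix (Fin m ⊕ Fin m) (Fin m ⊕ Fin m) F) *ᵥ a) := by
      intro x
      have h1 : ((t : Matrix (Fin m ⊕ Fin m) (Fin m ⊕ Fin m) F) * (g : Matrix (Fin m ⊕ Fin m) (Fin m ⊕ Fin m) F)) *ᵥ x =
          ((g : Matrix (Fin m ⊕ Fin m) (Fin m ⊕ Fin m) F) * (t : Matrix (Fin m ⊕ Fin m) (Fin m ⊕ Fin m) F)) *ᵥ x :=
        congrArg (fun M : Matrix.symplecticGroup (Fin m) F => (M : Matrix (Fin m ⊕ Fin m) (Fin m ⊕ Fin m) F) *ᵥ x) hcomm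
      rw [← mulVec_mulVec, ← mulVec_mulVec, ht, trans_mulVec, trans_mulVec, mulVec_add, mulVec_smul,
        add_right_inj, mul_smul, mul_smul] at h1
      exact smul_right_injective _ hc h1
    obtain ⟨x0, hx0⟩ := form_nondeg m a ha
    have hx0' : Cfsg.sympForm m F x0 a ≠ 0 := by rw [form_swap]; exact neg_ne_zero.mpr hx0
    -- g a = λ a
    obtain ⟨lam, hlam⟩ : ∃ lam : F, (g : Matrix (Fin m ⊕ Fin m) (Fin m ⊕ Fin m) F) *ᵥ a = lam • a := by
      refine ⟨Cfsg.sympForm m F ((g : Matrix (Fin m ⊕ Fin m) (Fin m ⊕ Fin m) F) *ᵥ x0) a / Cfsg.sympForm m F x0 a, ?_⟩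
      have h1 := hcomm' x0
      rw [div_eq_inv_mul, mul_smul, h1, smul_smul, inv_mul_cancel₀ hx0', one_smul]
    have hinv := form_invariant m _ g.2 x0 a
    rw [hlam, form_smul_right] at hinv
    have h2 := hcomm' x0
    rw [hlam, smul_smul] at h2
    -- f(g x0, a) • a = (f(x0,a) * lam) • a
    have h3 : Cfsg.sympForm m F ((g : Matrix (Fin m ⊕ Fin m) (Fin m ⊕ Fin m) F) *ᵥ x0) a =
        Cfsg.sympForm m F x0 a * lam := by
      by_contra hne
      have : (Cfsg.sympForm m F ((g : Matrix (Fin m ⊕ Fin m) (Fin m ⊕ Fin m) F) *ᵥ x0) a -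
          Cfsg.sympForm m F x0 a * lam) • a = 0 := by
        rw [sub_smul, h2, sub_self]
      rcases smul_eq_zero.mp this with h | h
      · exact hne (sub_eq_zero.mp h)
      · exact ha h
    rw [h3] at hinv
    -- lam * (f * lam) = f → lam^2 = 1
    have h4 : lam * lam = 1 := by
      have : Cfsg.sympForm m F x0 a * (lam * lam - 1) = 0 := by linear_combination hinv
      rcases mul_eq_zero.mp this with h | h
      · exact absurd h hx0'
      · exact sub_eq_zero.mp h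
    have h5 : lam = 1 := by
      have : (lam + 1) * (lam + 1) = 0 := by
        have h22 : (2 : F) = 0 := CharTwo.two_eq_zero
        linear_combination h4 + (lam + 1) * h22
      have h6 := mul_self_eq_zero.mp this
      have h7 : lam = -1 := eq_neg_of_add_eq_zero_left h6
      rw [h7, CharTwo.neg_eq]
    rw [hlam, h5, one_smul]
  · intro hga h hh
    rw [Set.mem_singleton_iff] at hh
    subst hh
    apply Subtype.ext
    show (h : Matrix (Fin m ⊕ Fin m) (Fin m ⊕ Fin m) F) * (g : Matrix (Fin m ⊕ Fin m) (Fin m ⊕ Fin m) F) =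
      (g : Matrix (Fin m ⊕ Fin m) (Fin m ⊕ Fin m) F) * (h : Matrix (Fin m ⊕ Fin m) (Fin m ⊕ Fin m) F)
    apply Matrix.mulVec_injective
    funext x
    rw [← mulVec_mulVec, ← mulVec_mulVec, ht, trans_mulVec, trans_mulVec, mulVec_add, mulVec_smul, hga]
    congr 2
    conv_lhs => rw [← hga]
    rw [form_invariant m _ g.2]

end Cfsg.Agent.Helper7.SympStab
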